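import Cfsg.Agent.Lib.ThreeTransp.Basic

/-! Fischer spaces and 3-transpositions. -/

set_option autoImplicit false
set_option maxHeartbeats 1000000

namespace CfsgLib.ThreeTransp

open Cfsg

/-! ### The line of two non-commuting transpositions -/

section lines

variable {G : Type*} [Group G] {D : Set G}

/-- `x, y, z` are the three points of a line: `x`, `y` do not commute and `z = y ^ x`. -/
def Line3 (D : Set G) (x y z : G) : Prop :=
  x ∈ D ∧ y ∈ D ∧ z ∈ D ∧ ¬ Commute x y ∧ z = x * y * x⁻¹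

theorem line3_of (hG : IsThreeTranspositionGroup D) {x y : G} (hx : x ∈ D) (hy : y ∈ D)
    (h : ¬ Commute x y) : Line3 D x y (x * y * x⁻¹) :=
  ⟨hx, hy, hG.2.1 x y hy, h, rfl⟩

theorem Line3.swap12 (hG : IsThreeTranspositionGroup D) {x y z : G} (h : Line3 D x y z) : Line3 D y x z := by
  obtain ⟨hx, hy, hz, hc, he⟩ := h
  refine ⟨hy, hx, hz, fun h => hc h.symm, ?_⟩
  rw [he, inv_eq hG.1 hx, inv_eq hG.1 hy]
  exact braid hG.1 hx hy hc

theorem Line3.swap23 (hG : IsThreeTranspositionGroup D) {x y z : G} (h : Line3 D x y z) : Line3 D x z y := by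
  obtain ⟨hx, hy, hz, hc, he⟩ := h
  have hxx := mul_self hG.1 hx
  refine ⟨hx, hz, hy, fun h => hc ?_, ?_⟩
  · subst he
    have := commute_conj x h
    rw [inv_eq hG.1 hx] at this
    rw [hxx, one_mul] at this
    have e : x * (x * y * x) * x = y := by
      calc x * (x * y * x) * x = (x * x) * y * (x * x) := by simp only [mul_assoc]
        _ = y := by rw [hxx, one_mul, mul_one]
    rwa [e] at this
  · subst he
    rw [inv_eq hG.1 hx]
    calc y = (x * x) * y * (x * x) := by rw [hxx, one_mul, mul_one]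
      _ = _ := by simp only [mul_assoc]

theorem Line3.conj (hG : IsThreeTranspositionGroup D) {x y z : G} (g : G) (h : Line3 D x y z) :
    Line3 D (g * x * g⁻¹) (g * y * g⁻¹) (g * z * g⁻¹) := by
  obtain ⟨hx, hy, hz, hc, he⟩ := h
  refine ⟨hG.2.1 g x hx, hG.2.1 g y hy, hG.2.1 g z hz, fun h => hc ((commute_conj_iff g).mp h), ?_⟩
  subst he; group

theorem Line3.eq_third (hG : IsThreeTranspositionGroup D) {x y z z' : G} (h : Line3 D x y z)
    (h' : Line3 D x y z') : z = z' := h.2.2.2.2.trans h'.2.2.2.2.symm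

theorem Line3.ne (hG : IsThreeTranspositionGroup D) {x y z : G} (h : Line3 D x y z) :
    x ≠ y ∧ x ≠ z ∧ y ≠ z := by
  have h12 : ∀ {a b c : G}, Line3 D a b c → a ≠ b := fun {a b c} h e => h.2.2.2.1 (e ▸ Commute.refl a)
  exact ⟨h12 h, h12 (h.swap23 hG), h12 ((h.swap12 hG).swap23 hG)⟩

/-- The six orderings of a triple. -/
def perm3 {α : Type*} (p : α × α × α) : Fin 6 → α × α × α :=
  ![p, (p.2.1, p.1, p.2.2), (p.1, p.2.2, p.2.1), (p.2.1, p.2.2, p.1), (p.2.2, p.1, p.2.1),
    (p.2.2, p.2.1, p.1)]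

theorem line3_perm (hG : IsThreeTranspositionGroup D) {α : Type*} (f : α → G) (p : α × α × α)
    (h : Line3 D (f p.1) (f p.2.1) (f p.2.2)) (k : Fin 6) :
    Line3 D (f (perm3 p k).1) (f (perm3 p k).2.1) (f (perm3 p k).2.2) := by
  have h1 := h.swap12 hG
  have h2 := h.swap23 hG
  fin_cases k
  exacts [h, h1, h2, h1.swap23 hG, h2.swap12 hG, (h1.swap23 hG).swap12 hG]

theorem mem_lines_iff (hG : IsThreeTranspositionGroup D) {l : Set D} :
    l ∈ threeTranspositionLines D ↔
      ∃ x y z : D, Line3 D (x : G) y z ∧ l = {x, y, z} := by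
  constructor
  · rintro ⟨x, y, hc, rfl⟩
    have h := (line3_of hG y.2 x.2 fun h => hc h.symm).swap12 hG
    refine ⟨x, y, ⟨_, h.2.2.1⟩, h, Set.ext fun w => ?_⟩
    simp only [Set.mem_setOf_eq, Set.mem_insert_iff, Set.mem_singleton_iff, Subtype.ext_iff]
  · rintro ⟨x, y, z, h, rfl⟩
    refine ⟨x, y, h.2.2.2.1, Set.ext fun w => ?_⟩
    simp only [Set.mem_setOf_eq, Set.mem_insert_iff, Set.mem_singleton_iff, Subtype.ext_iff,
      ← (h.swap12 hG).2.2.2.2]

theorem exists_line_at (hG : IsThreeTranspositionGroup D) {l : Set D} (hl : l ∈ threeTranspositionLines D)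
    {a : D} (ha : a ∈ l) : ∃ b c : D, Line3 D (a : G) b c ∧ l = {a, b, c} := by
  obtain ⟨x, y, z, h, rfl⟩ := (mem_lines_iff hG).mp hl
  rcases ha with rfl | rfl | rfl
  · exact ⟨y, z, h, rfl⟩
  · exact ⟨x, z, h.swap12 hG, Set.insert_comm _ _ _⟩
  · refine ⟨x, y, (h.swap23 hG).swap12 hG, ?_⟩
    rw [Set.insert_comm a x {y}, Set.pair_comm a y]

theorem lines_partialLinear (hG : IsThreeTranspositionGroup D) :
    LineSystem.IsPartialLinear (threeTranspositionLines D) := by
  have key : ∀ l ∈ threeTranspositionLines D, ∀ x y : D, x ≠ y → x ∈ l → y ∈ l →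
      ∃ z : D, Line3 D (x : G) y z ∧ l = {x, y, z} := by
    intro l hl x y hxy hx hy
    obtain ⟨b, c, h, rfl⟩ := exists_line_at hG hl hx
    rcases hy with rfl | rfl | rfl
    · exact absurd rfl hxy
    · exact ⟨c, h, rfl⟩
    · exact ⟨b, h.swap23 hG, by rw [Set.pair_comm b y]⟩
  intro l hl m hm x y hxy hxl hyl hxm hym
  obtain ⟨z, hz, rfl⟩ := key l hl x y hxy hxl hyl
  obtain ⟨z', hz', rfl⟩ := key m hm x y hxy hxm hym
  rw [Subtype.ext (hz.eq_third hG hz')]

theorem subspace_third (hG : IsThreeTranspositionGroup D) {T : Set D}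
    (hT : LineSystem.IsSubspace (threeTranspositionLines D) T) {x y z : D} (hx : x ∈ T) (hy : y ∈ T)
    (h : Line3 D (x : G) y z) : z ∈ T :=
  hT {x, y, z} ((mem_lines_iff hG).mpr ⟨x, y, z, h, rfl⟩) x hx y hy
    (fun e => (h.ne hG).1 (congrArg Subtype.val e)) (Or.inl rfl) (Or.inr (Or.inl rfl))
    (Or.inr (Or.inr rfl))

/-- A parametrised plane. -/
theorem plane_iso (hG : IsThreeTranspositionGroup D) {M : Type*} (LM : Set (Set M)) (col : M → M → Prop)
    (t : M → M → M) (f : M → D) (hf : Function.Injective f)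
    (hLM : ∀ s : Set M, s ∈ LM ↔ ∃ i j, col i j ∧ s = {i, j, t i j})
    (hline : ∀ i j, col i j → Line3 D (f i : G) (f j) (f (t i j)))
    (hcomm : ∀ i j, ¬ col i j → Commute (f i : G) (f j)) {S : Set D}
    (hsub : S ⊆ Set.range f)
    (hgen : ∀ T : Set D, S ⊆ T → LineSystem.IsSubspace (threeTranspositionLines D) T → Set.range f ⊆ T) :
    LineSystem.Isomorphic
      (LineSystem.restrict (threeTranspositionLines D) (LineSystem.span (threeTranspositionLines D) S)) LM := by
  set L := threeTranspositionLines D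
  have hR : LineSystem.IsSubspace L (Set.range f) := by
    intro l hl x hx y hy hxy hxl hyl
    obtain ⟨i, rfl⟩ := hx
    obtain ⟨j, rfl⟩ := hy
    obtain ⟨b, c, h, rfl⟩ := exists_line_at hG hl hxl
    have key : ∀ {b c : D}, Line3 D (f i : G) b c → f j = b → c ∈ Set.range f := by
      intro b c h e
      subst e
      have hcol : col i j := by
        by_contra hn
        exact h.2.2.2.1 (hcomm i j hn)
      exact ⟨t i j, Subtype.ext ((hline i j hcol).eq_third hG h)⟩
    rintro w (rfl | rfl | rfl)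
    · exact ⟨i, rfl⟩
    · rcases hyl with h' | h' | h'
      · exact absurd h'.symm hxy
      · exact ⟨j, h'⟩
      · exact key (h.swap23 hG) h'
    · rcases hyl with h' | h' | h'
      · exact absurd h'.symm hxy
      · exact key h h'
      · exact ⟨j, h'⟩
  have hspan : LineSystem.span L S = Set.range f := by
    refine Set.Subset.antisymm (Set.sInter_subset_of_mem ⟨hsub, hR⟩) ?_
    exact Set.subset_sInter fun T hT => hgen T hT.1 hT.2
  rw [hspan]
  refine ⟨(Equiv.ofInjective f hf).symm, fun s => ?_⟩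
  rw [hLM]
  have himg : ∀ i : M, (Equiv.ofInjective f hf).symm ⟨f i, i, rfl⟩ = i := fun i => by
    rw [Equiv.symm_apply_eq]; exact Subtype.ext rfl
  constructor
  · rintro ⟨l, hl, hlS, rfl⟩
    obtain ⟨x, y, z, h, rfl⟩ := (mem_lines_iff hG).mp hl
    obtain ⟨i, rfl⟩ := hlS (Or.inl rfl)
    obtain ⟨j, rfl⟩ := hlS (Or.inr (Or.inl rfl))
    have hcol : col i j := by
      by_contra hn
      exact h.2.2.2.1 (hcomm i j hn)
    have hz : z = f (t i j) := Subtype.ext (h.eq_third hG (hline i j hcol))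
    refine ⟨i, j, hcol, Set.ext fun w => ?_⟩
    rw [Equiv.image_eq_preimage_symm, Set.mem_preimage, Equiv.symm_symm]
    simp only [Set.mem_setOf_eq, Set.mem_insert_iff, Set.mem_singleton_iff, hz]
    exact ⟨fun h => h.imp (fun e => hf e) (Or.imp (fun e => hf e) (fun e => hf e)),
      fun h => h.imp (fun e => congrArg f e) (Or.imp (fun e => congrArg f e) (fun e => congrArg f e))⟩
  · rintro ⟨i, j, hcol, hs⟩
    refine ⟨{f i, f j, f (t i j)}, (mem_lines_iff hG).mpr ⟨_, _, _, hline i j hcol, rfl⟩, ?_, ?_⟩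
    · rintro w (rfl | rfl | rfl) <;> exact ⟨_, rfl⟩
    · apply Set.ext; rintro ⟨w, k, rfl⟩
      have : k ∈ (Equiv.ofInjective f hf).symm '' s ↔ k ∈ ({i, j, t i j} : Set M) := by rw [hs]
      rw [Equiv.image_eq_preimage_symm, Set.mem_preimage, Equiv.symm_symm] at this
      refine this.trans ?_
      simp only [Set.mem_setOf_eq, Set.mem_insert_iff, Set.mem_singleton_iff, hf.eq_iff]

end lines

/-! ### The two models -/

/-- Third point in the affine plane. -/
def affThird (i j : Fin 2 → ZMod 3) : Fin 2 → ZMod 3 := -i - j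

theorem affine_lines (s : Set (Fin 2 → ZMod 3)) :
    s ∈ affinePlaneThree ↔ ∃ i j, i ≠ j ∧ s = {i, j, affThird i j} := by
  have h1 : ∀ v w : Fin 2 → ZMod 3, w ≠ 0 → v ≠ v + w ∧ ∀ x : Fin 2 → ZMod 3,
      ((∃ c : ZMod 3, x = v + c • w) ↔ (x = v ∨ x = v + w ∨ x = affThird v (v + w))) := by
    unfold affThird; decide +kernel
  constructor
  · rintro ⟨v, w, hw, rfl⟩
    exact ⟨v, v + w, (h1 v w hw).1, Set.ext fun x => (h1 v w hw).2 x⟩
  · rintro ⟨i, j, hij, rfl⟩
    refine ⟨i, j - i, sub_ne_zero.mpr hij.symm, Set.ext fun x => ?_⟩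
    refine Iff.trans ?_ ((h1 i (j - i) (sub_ne_zero.mpr hij.symm)).2 x).symm
    rw [add_sub_cancel]
    rfl

/-- Collinearity in the dual affine plane. -/
def dualCol (a b : DualAffinePoint) : Prop := (a.1 ∩ b.1).card = 1

instance dualColDec (a b : DualAffinePoint) : Decidable (dualCol a b) :=
  inferInstanceAs (Decidable ((a.1 ∩ b.1).card = 1))

/-- Third point in the dual affine plane. -/
def dualThird (a b : DualAffinePoint) : DualAffinePoint :=
  if h : ((a.1 \ b.1) ∪ (b.1 \ a.1)).card = 2 then ⟨(a.1 \ b.1) ∪ (b.1 \ a.1), h⟩ else a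

theorem dual_lines (s : Set DualAffinePoint) :
    s ∈ dualAffinePlaneTwo ↔ ∃ i j, dualCol i j ∧ s = {i, j, dualThird i j} := by
  have h1 : ∀ i : Fin 4, ∃ a b, dualCol a b ∧ ∀ x : DualAffinePoint,
      (i ∉ x.1 ↔ (x = a ∨ x = b ∨ x = dualThird a b)) := by decide +kernel
  have h2 : ∀ a b, ∃ i : Fin 4, ¬ dualCol a b ∨ ∀ x : DualAffinePoint,
      (i ∉ x.1 ↔ (x = a ∨ x = b ∨ x = dualThird a b)) := by decide +kernel
  constructor
  · rintro ⟨i, rfl⟩
    obtain ⟨a, b, hab, hx⟩ := h1 i
    exact ⟨a, b, hab, Set.ext hx⟩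
  · rintro ⟨a, b, hab, rfl⟩
    obtain ⟨i, hx⟩ := h2 a b
    exact ⟨i, Set.ext fun x => (hx.resolve_left (not_not_intro hab) x).symm⟩

/-- The transposition attached to a point of the dual affine plane. -/
def dualSwap (s : DualAffinePoint) : Equiv.Perm (Fin 4) :=
  if (0 : Fin 4) ∈ s.1 then
    (if (1 : Fin 4) ∈ s.1 then Equiv.swap 0 1 else if (2 : Fin 4) ∈ s.1 then Equiv.swap 0 2 else Equiv.swap 0 3)
  else if (1 : Fin 4) ∈ s.1 then (if (2 : Fin 4) ∈ s.1 then Equiv.swap 1 2 else Equiv.swap 1 3)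
  else Equiv.swap 2 3

/-- Positions of the nine points of an affine plane. -/
def affPt : Fin 9 → (Fin 2 → ZMod 3) :=
  ![![0, 0], ![1, 0], ![0, 1], ![2, 2], ![0, 2], ![2, 0], ![1, 1], ![2, 1], ![1, 2]]

/-- The twelve lines of an affine plane, as triples of indices. -/
def affLines : Fin 12 → Fin 9 × Fin 9 × Fin 9 :=
  ![(0, 1, 5), (0, 2, 4), (1, 2, 3), (0, 3, 6), (1, 4, 7), (2, 5, 8), (5, 4, 6), (5, 3, 7),
    (4, 3, 8), (2, 6, 7), (1, 6, 8), (0, 7, 8)]

/-- The index of a point of the affine plane. -/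
def affIdx (v : Fin 2 → ZMod 3) : Fin 9 :=
  ((List.finRange 9).find? fun i => decide (affPt i = v)).getD 0

section planes

variable {G : Type*} [Group G] {D : Set G}

theorem dual_plane (hG : IsThreeTranspositionGroup D) {a b c C B : D} (hb : Line3 D (a : G) b C)
    (hc : Line3 D (a : G) c B) (hbc : Commute (b : G) c) (hne : b ≠ c) :
    LineSystem.Isomorphic (LineSystem.restrict (threeTranspositionLines D)
      (LineSystem.span (threeTranspositionLines D) ({a, b, C} ∪ {a, c, B}))) dualAffinePlaneTwo := by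
  have R : Rel4 (b : G) (a : G) (c : G) := rel4 hG.1 b.2 a.2 c.2 hbc (hb.swap12 hG).2.2.2.1 hc.2.2.2.1
  obtain ⟨gb, ga, gc⟩ := hom4_gen R
  set φ := hom4 R with hφ
  have inj : Function.Injective φ := hom4_injective R fun e => hne (Subtype.ext e)
  have hmem : ∀ s, φ (dualSwap s) ∈ D := by
    have key : ∀ s, dualSwap s = pa ∨ dualSwap s = pb ∨ dualSwap s = pc ∨ dualSwap s = pa * pb * pa⁻¹ ∨
        dualSwap s = pc * pb * pc⁻¹ ∨ dualSwap s = (pc * pa) * pb * (pc * pa)⁻¹ := by decide +kernel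
    intro s
    rcases key s with h | h | h | h | h | h <;> rw [h] <;>
      simp only [map_mul, map_inv, gb, ga, gc]
    exacts [b.2, a.2, c.2, hG.2.1 _ _ a.2, hG.2.1 _ _ a.2, hG.2.1 _ _ a.2]
  set f : DualAffinePoint → D := fun s => ⟨φ (dualSwap s), hmem s⟩ with hfdef
  have hinj : Function.Injective dualSwap := by unfold Function.Injective; decide +kernel
  have hf : Function.Injective f := fun s t e => hinj (inj (congrArg Subtype.val e))
  have htab : ∀ i j, (dualCol i j → dualSwap i * dualSwap j ≠ dualSwap j * dualSwap i ∧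
      dualSwap (dualThird i j) = dualSwap i * dualSwap j * (dualSwap i)⁻¹) ∧
      (¬ dualCol i j → dualSwap i * dualSwap j = dualSwap j * dualSwap i) := by decide +kernel
  refine plane_iso hG _ dualCol dualThird f hf dual_lines ?_ ?_ ?_ ?_
  · intro i j hcol
    obtain ⟨h1, h2⟩ := (htab i j).1 hcol
    refine ⟨(f i).2, (f j).2, (f _).2, fun h => h1 (inj ?_), ?_⟩
    · simpa only [map_mul] using h.eq
    · show φ (dualSwap (dualThird i j)) = φ (dualSwap i) * φ (dualSwap j) * (φ (dualSwap i))⁻¹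
      rw [h2]; simp only [map_mul, map_inv]
  · intro i j hcol
    show φ (dualSwap i) * φ (dualSwap j) = φ (dualSwap j) * φ (dualSwap i)
    rw [← map_mul, ← map_mul, (htab i j).2 hcol]
  · have hex : ∀ π ∈ [pa, pb, pc, pb * pa * pb⁻¹, pb * pc * pb⁻¹], ∃ s, dualSwap s = π := by decide +kernel
    have sA : (a : D) ∈ Set.range f := by
      obtain ⟨s, hs⟩ := hex pb (by simp)
      exact ⟨s, Subtype.ext ((congrArg φ hs).trans ga)⟩
    have sB : (b : D) ∈ Set.range f := by
      obtain ⟨s, hs⟩ := hex pa (by simp)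
      exact ⟨s, Subtype.ext ((congrArg φ hs).trans gb)⟩
    have sC : (c : D) ∈ Set.range f := by
      obtain ⟨s, hs⟩ := hex pc (by simp)
      exact ⟨s, Subtype.ext ((congrArg φ hs).trans gc)⟩
    have sb : (C : D) ∈ Set.range f := by
      obtain ⟨s, hs⟩ := hex (pb * pa * pb⁻¹) (by simp)
      refine ⟨s, Subtype.ext ((congrArg φ hs).trans ?_)⟩
      simp only [map_mul, map_inv, ga, gb]; exact hb.2.2.2.2.symm
    have sc : (B : D) ∈ Set.range f := by
      obtain ⟨s, hs⟩ := hex (pb * pc * pb⁻¹) (by simp)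
      refine ⟨s, Subtype.ext ((congrArg φ hs).trans ?_)⟩
      simp only [map_mul, map_inv, ga, gc]; exact hc.2.2.2.2.symm
    rintro w ((rfl | rfl | rfl) | (rfl | rfl | rfl)) <;> assumption
  · intro T hT hTs
    have hall : ∀ s, dualSwap s = pa ∨ dualSwap s = pb ∨ dualSwap s = pc ∨ dualSwap s = pb * pa * pb⁻¹ ∨
        dualSwap s = pb * pc * pb⁻¹ ∨ dualSwap s = pa * (pb * pc * pb⁻¹) * pa⁻¹ := by decide +kernel
    rintro _ ⟨s, rfl⟩
    have mA : a ∈ T := hT (Or.inl (Or.inl rfl))
    have mb : b ∈ T := hT (Or.inl (Or.inr (Or.inl rfl)))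
    have mC : C ∈ T := hT (Or.inl (Or.inr (Or.inr rfl)))
    have mc : c ∈ T := hT (Or.inr (Or.inr (Or.inl rfl)))
    have mB : B ∈ T := hT (Or.inr (Or.inr (Or.inr rfl)))
    have hBeq : φ (pb * pc * pb⁻¹) = (B : G) := by
      simp only [map_mul, map_inv, ga, gc]; exact hc.2.2.2.2.symm
    rcases hall s with h | h | h | h | h | h
    · rwa [show f s = b from Subtype.ext ((congrArg φ h).trans gb)]
    · rwa [show f s = a from Subtype.ext ((congrArg φ h).trans ga)]
    · rwa [show f s = c from Subtype.ext ((congrArg φ h).trans gc)]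
    · rwa [show f s = C from Subtype.ext ((congrArg φ h).trans (by
        simp only [map_mul, map_inv, ga, gb]; exact hb.2.2.2.2.symm))]
    · rwa [show f s = B from Subtype.ext ((congrArg φ h).trans hBeq)]
    · refine subspace_third hG hTs mb mB ⟨b.2, B.2, (f s).2, fun hcb => ?_, ?_⟩
      · have hne' : pa * (pb * pc * pb⁻¹) ≠ (pb * pc * pb⁻¹) * pa := by decide +kernel
        refine hne' (inj ?_)
        rw [map_mul φ pa, map_mul φ (pb * pc * pb⁻¹), hBeq, gb]
        exact hcb.eq
      · show φ (dualSwap s) = _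
        rw [h, map_mul φ (pa * (pb * pc * pb⁻¹)), map_mul φ pa, map_inv φ pa, gb, hBeq]

theorem affine_plane (hG : IsThreeTranspositionGroup D) {a b c C B : D} (hb : Line3 D (a : G) b C)
    (hc : Line3 D (a : G) c B) (hbc : ¬ Commute (b : G) c) (hCc : ¬ Commute (C : G) c) :
    LineSystem.Isomorphic (LineSystem.restrict (threeTranspositionLines D)
      (LineSystem.span (threeTranspositionLines D) ({a, b, C} ∪ {a, c, B}))) affinePlaneThree := by
  have hA := line3_of hG b.2 c.2 hbc
  obtain ⟨A, hAe⟩ : ∃ A : D, (A : G) = (b : G) * c * (b : G)⁻¹ := ⟨⟨_, hA.2.2.1⟩, rfl⟩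
  rw [← hAe] at hA
  have inva := inv_eq hG.1 a.2
  -- conjugation by a swaps `b, C` and `c, B`
  have cab : (a : G) * b * (a : G)⁻¹ = C := hb.2.2.2.2.symm
  have cac : (a : G) * c * (a : G)⁻¹ = B := hc.2.2.2.2.symm
  have caC : (a : G) * C * (a : G)⁻¹ = b := (hb.swap23 hG).2.2.2.2.symm
  have caB : (a : G) * B * (a : G)⁻¹ = c := (hc.swap23 hG).2.2.2.2.symm
  have hbB : ¬ Commute (b : G) B := fun h => hCc (by
    have := commute_conj (a : G) h; rwa [cab, caB] at this)
  have hCB : ¬ Commute (C : G) B := fun h => hbc (by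
    have := commute_conj (a : G) h; rwa [caC, caB] at this)
  have cbc : (b : G) * c * (b : G)⁻¹ = A := hAe.symm
  have cba : (b : G) * a * (b : G)⁻¹ = C := (hb.swap12 hG).2.2.2.2.symm
  have cbC : (b : G) * C * (b : G)⁻¹ = a := ((hb.swap12 hG).swap23 hG).2.2.2.2.symm
  have cbA : (b : G) * A * (b : G)⁻¹ = c := (hA.swap23 hG).2.2.2.2.symm
  have cca : (c : G) * a * (c : G)⁻¹ = B := (hc.swap12 hG).2.2.2.2.symm
  have ccB : (c : G) * B * (c : G)⁻¹ = a := ((hc.swap12 hG).swap23 hG).2.2.2.2.symm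
  have ccb : (c : G) * b * (c : G)⁻¹ = A := (hA.swap12 hG).2.2.2.2.symm
  have ccA : (c : G) * A * (c : G)⁻¹ = b := ((hA.swap12 hG).swap23 hG).2.2.2.2.symm
  have haA : ¬ Commute (a : G) A := fun h => hCc (by
    have := commute_conj (b : G) h; rwa [cba, cbA] at this)
  have hAC : ¬ Commute (A : G) C := fun h => hc.2.2.2.1 (by
    have := commute_conj (b : G) h; rw [cbA, cbC] at this; exact this.symm)
  have hAB : ¬ Commute (A : G) B := fun h => hb.2.2.2.1 (by
    have := commute_conj (c : G) h; rw [ccA, ccB] at this; exact this.symm)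
  have l6 := line3_of hG C.2 B.2 hCB
  obtain ⟨P, hPe⟩ : ∃ P : D, (P : G) = (C : G) * B * (C : G)⁻¹ := ⟨⟨_, l6.2.2.1⟩, rfl⟩
  rw [← hPe] at l6
  have l7 := (line3_of hG A.2 C.2 hAC).swap12 hG
  obtain ⟨Q, hQe⟩ : ∃ Q : D, (Q : G) = (A : G) * C * (A : G)⁻¹ := ⟨⟨_, l7.2.2.1⟩, rfl⟩
  rw [← hQe] at l7
  have l8 := (line3_of hG A.2 B.2 hAB).swap12 hG
  obtain ⟨R, hRe⟩ : ∃ R : D, (R : G) = (A : G) * B * (A : G)⁻¹ := ⟨⟨_, l8.2.2.1⟩, rfl⟩
  rw [← hRe] at l8
  have l3 : Line3 D (a : G) A P := by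
    have h := line3_of hG a.2 A.2 haA
    have e := hA.conj hG (a : G)
    rw [cab, cac] at e
    rw [← e.eq_third hG l6]
    exact h
  have l4 : Line3 D (b : G) B Q := by
    have h := line3_of hG b.2 B.2 hbB
    have e := (hc.conj hG (b : G))
    rw [cba, cbc] at e
    rw [← e.eq_third hG l7]
    exact h
  have l5 : Line3 D (c : G) C R := by
    have h := line3_of hG c.2 C.2 fun h => hCc h.symm
    have e := (hb.conj hG (c : G))
    rw [cca, ccb] at e
    rw [← e.eq_third hG l8]
    exact h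
  have l9 : Line3 D (c : G) P Q := by
    have e := l3.conj hG (c : G)
    rw [cca, ccA] at e
    have hcP : ¬ Commute (c : G) P := fun h => by
      have := commute_conj (a : G) h
      rw [cac, (l3.swap23 hG).2.2.2.2.symm] at this
      exact hAB this.symm
    have h := line3_of hG c.2 P.2 hcP
    rwa [← ((e.swap12 hG)).eq_third hG l4]
  have l10 : Line3 D (b : G) P R := by
    have e := l3.conj hG (b : G)
    rw [cba, cbA] at e
    have hbP : ¬ Commute (b : G) P := fun h => by
      have := commute_conj (a : G) h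
      rw [cab, (l3.swap23 hG).2.2.2.2.symm] at this
      exact hAC this.symm
    have h := line3_of hG b.2 P.2 hbP
    rwa [← (e.swap12 hG).eq_third hG l5]
  have l11 : Line3 D (a : G) Q R := by
    have e := l4.conj hG (a : G)
    rw [cab, caB] at e
    have haQ : ¬ Commute (a : G) Q := fun h => by
      have := commute_conj (b : G) h
      rw [cba, (l4.swap23 hG).2.2.2.2.symm] at this
      exact hCB this
    have h := line3_of hG a.2 Q.2 haQ
    rwa [← (e.swap12 hG).eq_third hG l5]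
  let v : Fin 9 → D := ![a, b, c, A, B, C, P, Q, R]
  have hv : ∀ k : Fin 12, Line3 D (v (affLines k).1 : G) (v (affLines k).2.1) (v (affLines k).2.2) := by
    intro k; fin_cases k
    exacts [hb, hc, hA, l3, l4, l5, l6, l7, l8, l9, l10, l11]
  have key : ∀ i j : Fin 2 → ZMod 3, i ≠ j →
      ∃ (k : Fin 12) (π : Fin 6), perm3 (affLines k) π = (affIdx i, affIdx j, affIdx (affThird i j)) := by
    decide +kernel
  have hline : ∀ i j, i ≠ j →
      Line3 D (v (affIdx i) : G) (v (affIdx j)) (v (affIdx (affThird i j))) := by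
    intro i j hij
    obtain ⟨k, π, hk⟩ := key i j hij
    have := line3_perm hG (fun n => (v n : G)) (affLines k) (hv k) π
    rwa [hk] at this
  have hinv : ∀ i, affIdx (affPt i) = i := by decide +kernel
  have hinv' : ∀ i, affPt (affIdx i) = i := by decide +kernel
  refine plane_iso hG _ (fun i j => i ≠ j) affThird (fun i => v (affIdx i)) ?_ affine_lines hline ?_ ?_ ?_
  · intro i j e
    by_contra hij
    exact ((hline i j hij).ne hG).1 (congrArg Subtype.val e)
  · intro i j h
    rw [not_ne_iff.mp h]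
  · have hr : ∀ n, v n ∈ Set.range fun i => v (affIdx i) := fun n => ⟨affPt n, congrArg v (hinv n)⟩
    rintro w ((rfl | rfl | rfl) | (rfl | rfl | rfl))
    exacts [hr 0, hr 1, hr 5, hr 0, hr 2, hr 4]
  · rintro T hT hTs _ ⟨i, rfl⟩
    have mA : a ∈ T := hT (Or.inl (Or.inl rfl))
    have mb : b ∈ T := hT (Or.inl (Or.inr (Or.inl rfl)))
    have mC : C ∈ T := hT (Or.inl (Or.inr (Or.inr rfl)))
    have mc : c ∈ T := hT (Or.inr (Or.inr (Or.inl rfl)))
    have mB : B ∈ T := hT (Or.inr (Or.inr (Or.inr rfl)))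
    have mA' : A ∈ T := subspace_third hG hTs mb mc hA
    have mP : P ∈ T := subspace_third hG hTs mC mB l6
    have mQ : Q ∈ T := subspace_third hG hTs mC mA' l7
    have mR : R ∈ T := subspace_third hG hTs mB mA' l8
    have : ∀ n, v n ∈ T := by
      intro n; fin_cases n
      exacts [mA, mb, mc, mA', mB, mC, mP, mQ, mR]
    exact this _

/-- The lines of a set of 3-transpositions form a Fischer space. -/
theorem isFischerSpace_lines (hG : IsThreeTranspositionGroup D) :
    IsFischerSpace (threeTranspositionLines D) := by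
  refine ⟨lines_partialLinear hG, ?_, ?_⟩
  · intro l hl
    obtain ⟨x, y, z, h, rfl⟩ := (mem_lines_iff hG).mp hl
    obtain ⟨h1, h2, h3⟩ := h.ne hG
    exact Set.ncard_eq_three.mpr ⟨x, y, z, fun e => h1 (congrArg Subtype.val e),
      fun e => h2 (congrArg Subtype.val e), fun e => h3 (congrArg Subtype.val e), rfl⟩
  · intro l hl m hm hlm hne
    obtain ⟨a, hal, ham⟩ := hne
    obtain ⟨b, C, hb, hle⟩ := exists_line_at hG hl hal
    obtain ⟨c, B, hc, hme⟩ := exists_line_at hG hm ham
    have hcl : c ∉ l := fun h => hlm (lines_partialLinear hG l hl m hm a c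
      (fun e => (hc.ne hG).1 (congrArg Subtype.val e)) hal h (by rw [hme]; exact Or.inl rfl)
      (by rw [hme]; exact Or.inr (Or.inl rfl)))
    rw [hle] at hcl
    subst hle hme
    by_cases h1 : Commute (b : G) c
    · exact Or.inl (dual_plane hG hb hc h1 fun e => hcl (Or.inr (Or.inl e.symm)))
    by_cases h2 : Commute (C : G) c
    · rw [show ({a, b, C} : Set D) = {a, C, b} from by rw [Set.pair_comm b C]]
      exact Or.inl (dual_plane hG (hb.swap23 hG) hc h2 fun e => hcl (Or.inr (Or.inr e.symm)))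
    exact Or.inr (affine_plane hG hb hc h1 h2)

end planes

/-! ### The involutions of a Fischer space -/

section space

open Cfsg.LineSystem

variable {X : Type*} {L : Set (Set X)}

/-- The axioms satisfied by the models. -/
structure PlaneModel {M : Type*} (LM : Set (Set M)) : Prop where
  ex : ∃ (col : M → M → Prop) (t : M → M → M) (g : M → M → M),
    (∀ s : Set M, s ∈ LM ↔ ∃ i j, col i j ∧ s = {i, j, t i j}) ∧
    (∀ i j, col i j → col j i ∧ t j i = t i j ∧ col i (t i j) ∧ t i (t i j) = j) ∧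
    (∀ i, ¬ col i i) ∧
    (∀ p q, (col p q → g p q = t p q) ∧ (¬ col p q → g p q = q)) ∧
    ∀ p i j, col i j → col (g p i) (g p j) ∧ g p (t i j) = t (g p i) (g p j)

theorem planeModel_affine : PlaneModel affinePlaneThree := by
  refine ⟨fun i j => i ≠ j, affThird, fun p q => if p = q then q else affThird p q, affine_lines, ?_, fun i h => h rfl, ?_, ?_⟩
  · unfold affThird; decide +kernel
  · intro p q
    exact ⟨fun h => if_neg h, fun h => if_pos (not_ne_iff.mp h)⟩
  · unfold affThird; decide +kernel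

theorem planeModel_dual : PlaneModel dualAffinePlaneTwo := by
  refine ⟨dualCol, dualThird, fun p q => if dualCol p q then dualThird p q else q, dual_lines, ?_, ?_, ?_, ?_⟩
  · decide +kernel
  · decide +kernel
  · exact fun p q => ⟨fun h => if_pos h, fun h => if_neg h⟩
  · decide +kernel

theorem isSubspace_span (S : Set X) : IsSubspace L (span L S) := by
  intro l hl x hx y hy hxy hxl hyl w hw T hT
  exact hT.2 l hl x (hx T hT) y (hy T hT) hxy hxl hyl hw

theorem subset_span (S : Set X) : S ⊆ span L S := fun _ hx _ hT => hT.1 hx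

theorem three_ne {x y z : X} (h : ({x, y, z} : Set X).ncard = 3) : x ≠ y ∧ x ≠ z ∧ y ≠ z := by
  refine ⟨?_, ?_, ?_⟩ <;> rintro rfl
  · rw [Set.insert_eq_of_mem (Set.mem_insert _ _)] at h
    have := Set.ncard_insert_le x ({z} : Set X)
    rw [Set.ncard_singleton] at this; omega
  · rw [Set.insert_eq_of_mem (by simp)] at h
    have := Set.ncard_insert_le y ({x} : Set X)
    rw [Set.ncard_singleton] at this; omega
  · rw [Set.pair_eq_singleton] at h
    have := Set.ncard_insert_le x ({y} : Set X)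
    rw [Set.ncard_singleton] at this; omega

theorem exists_third (hL : IsFischerSpace L) {l : Set X} (hl : l ∈ L) {x y : X} (hx : x ∈ l) (hy : y ∈ l)
    (hxy : x ≠ y) : ∃ z, z ≠ x ∧ z ≠ y ∧ l = {x, y, z} := by
  obtain ⟨p, q, r, -, -, -, rfl⟩ := Set.ncard_eq_three.mp (hL.2.1 l hl)
  have : ∃ z, ({p, q, r} : Set X) = {x, y, z} := by
    rcases hx with rfl | rfl | rfl <;> rcases hy with rfl | rfl | rfl
    · exact absurd rfl hxy
    · exact ⟨r, rfl⟩
    · exact ⟨q, by rw [Set.pair_comm q y]⟩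
    · exact ⟨r, Set.insert_comm _ _ _⟩
    · exact absurd rfl hxy
    · exact ⟨p, by rw [Set.insert_comm p x {y}, Set.pair_comm p y]⟩
    · exact ⟨q, by rw [Set.pair_comm q x, Set.insert_comm y x {q}]⟩
    · exact ⟨p, by rw [Set.pair_comm y x, Set.insert_comm p x {y}, Set.pair_comm p y]⟩
    · exact absurd rfl hxy
  obtain ⟨z, hz⟩ := this
  rw [hz] at hl
  obtain ⟨-, h2, h3⟩ := three_ne (hL.2.1 _ hl)
  exact ⟨z, h2.symm, h3.symm, hz⟩

theorem lineMap_eq (hL : IsFischerSpace L) {x y z : X} (h : ({x, y, z} : Set X) ∈ L) :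
    lineMap L x y = z := by
  obtain ⟨h1, h2, h3⟩ := three_ne (hL.2.1 _ h)
  have hex : ∃ z : X, z ≠ x ∧ z ≠ y ∧ x ≠ y ∧ ({x, y, z} : Set X) ∈ L := ⟨z, h2.symm, h3.symm, h1, h⟩
  have e : lineMap L x y = hex.choose := dif_pos hex
  rw [e]
  obtain ⟨c1, c2, -, c4⟩ := hex.choose_spec
  have he := hL.1 _ c4 _ h x y h1 (Or.inl rfl) (Or.inr (Or.inl rfl)) (Or.inl rfl) (Or.inr (Or.inl rfl))
  have : hex.choose ∈ ({x, y, z} : Set X) := he ▸ Or.inr (Or.inr rfl)
  rcases this with h' | h' | h'
  · exact absurd h' c1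
  · exact absurd h' c2
  · exact h'

theorem lineMap_fixed (hL : IsFischerSpace L) {x y : X} (h : ∀ z, ({x, y, z} : Set X) ∉ L) :
    lineMap L x y = y :=
  dif_neg fun ⟨z, _, _, _, hz⟩ => h z hz

theorem lineMap_self (hL : IsFischerSpace L) (x : X) : lineMap L x x = x :=
  lineMap_fixed hL fun _ h => (three_ne (hL.2.1 _ h)).1 rfl

theorem lineMap_lineMap (hL : IsFischerSpace L) (x y : X) : lineMap L x (lineMap L x y) = y := by
  by_cases h : ∃ z, ({x, y, z} : Set X) ∈ L
  · obtain ⟨z, hz⟩ := h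
    rw [lineMap_eq hL hz]
    exact lineMap_eq hL (by rw [Set.pair_comm z y]; exact hz)
  · push Not at h
    rw [lineMap_fixed hL h, lineMap_fixed hL h]

theorem lineMap_image_line (hL : IsFischerSpace L) (x : X) {m : Set X} (hm : m ∈ L) :
    lineMap L x '' m ∈ L := by
  by_cases hxm : x ∈ m
  · obtain ⟨y, z, hyx, hzx, hyz, hme⟩ : ∃ y z, y ≠ x ∧ z ≠ x ∧ z ≠ y ∧ m = {x, y, z} := by
      obtain ⟨y, hy, hyx⟩ := Set.exists_ne_of_one_lt_ncard (by rw [hL.2.1 m hm]; norm_num) x
      obtain ⟨z, h1, h2, h3⟩ := exists_third hL hm hxm hy hyx.symm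
      exact ⟨y, z, hyx, h1, h2, h3⟩
    subst hme
    have e : lineMap L x '' {x, y, z} = {x, z, y} := by
      rw [Set.image_insert_eq, Set.image_pair, lineMap_self hL, lineMap_eq hL hm,
        lineMap_eq hL (by rw [Set.pair_comm z y]; exact hm)]
    rw [e, Set.pair_comm z y]; exact hm
  by_cases hcol : ∃ y ∈ m, ∃ z, ({x, y, z} : Set X) ∈ L
  swap
  · push Not at hcol
    have : lineMap L x '' m = m := by
      refine (Set.image_congr fun y hy => lineMap_fixed hL (hcol y hy)).trans (Set.image_id' m)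
    rw [this]; exact hm
  obtain ⟨y, hy, z, hl⟩ := hcol
  have hne : ({x, y, z} : Set X) ≠ m := fun e => hxm (e ▸ Or.inl rfl)
  have hplane := hL.2.2 _ hl m hm hne ⟨y, Or.inr (Or.inl rfl), hy⟩
  have hS : IsSubspace L (span L ({x, y, z} ∪ m)) := isSubspace_span _
  have hxS : x ∈ span L ({x, y, z} ∪ m) := subset_span _ (Or.inl (Or.inl rfl))
  have hmS : m ⊆ span L ({x, y, z} ∪ m) := fun u hu => subset_span _ (Or.inr hu)
  generalize span L ({x, y, z} ∪ m) = S at hplane hS hxS hmS
  have main : ∀ {M : Type} (LM : Set (Set M)), PlaneModel LM → Isomorphic (restrict L S) LM →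
      lineMap L x '' m ∈ L := by
    rintro M LM ⟨col, t, g, hlines, hsym, hirr, hg, hpres⟩ ⟨e, he⟩
    have hin : ∀ l ∈ L, l ⊆ S → e '' {w : S | (w : X) ∈ l} ∈ LM := fun l hl hlS =>
      (he _).mp ⟨l, hl, hlS, rfl⟩
    have hout : ∀ i j, col i j → ∃ l ∈ L, l ⊆ S ∧ ∀ w : S, (w : X) ∈ l ↔ e w ∈ ({i, j, t i j} : Set M) := by
      intro i j hij
      have := (he (e ⁻¹' {i, j, t i j})).mpr (by
        rw [Equiv.image_preimage]; exact (hlines _).mpr ⟨i, j, hij, rfl⟩)
      obtain ⟨l, hl, hlS, heq⟩ := this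
      exact ⟨l, hl, hlS, fun w => (Set.ext_iff.mp heq w).symm⟩
    have hcolt : ∀ p q r, p ≠ q → r ≠ p → r ≠ q → ({p, q, r} : Set M) ∈ LM → col p q ∧ r = t p q := by
      intro p q r hpq hrp hrq h
      obtain ⟨i, j, hij, e3⟩ := (hlines _).mp h
      obtain ⟨s1, s2, s3, s4⟩ := hsym i j hij
      obtain ⟨-, -, s5, s6⟩ := hsym j i s1
      rw [s2] at s5 s6
      obtain ⟨s7, s8, -, -⟩ := hsym i _ s3
      obtain ⟨s9, s10, -, -⟩ := hsym j _ s5
      rw [s4] at s8
      rw [s6] at s10
      have hp : p = i ∨ p = j ∨ p = t i j := by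
        have : p ∈ ({i, j, t i j} : Set M) := e3 ▸ Or.inl rfl
        exact this
      have hq : q = i ∨ q = j ∨ q = t i j := by
        have : q ∈ ({i, j, t i j} : Set M) := e3 ▸ Or.inr (Or.inl rfl)
        exact this
      have hr : r = i ∨ r = j ∨ r = t i j := by
        have : r ∈ ({i, j, t i j} : Set M) := e3 ▸ Or.inr (Or.inr rfl)
        exact this
      rcases hp with rfl | rfl | rfl <;> rcases hq with rfl | rfl | rfl <;> rcases hr with rfl | rfl | rfl <;>
        first
        | exact absurd rfl hpq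
        | exact absurd rfl hrp
        | exact absurd rfl hrq
        | exact ⟨hij, rfl⟩
        | exact ⟨s1, s2.symm⟩
        | exact ⟨s3, s4.symm⟩
        | exact ⟨s5, s6.symm⟩
        | exact ⟨s7, s8.symm⟩
        | exact ⟨s9, s10.symm⟩
    have hT : ∀ u : S, ∃ u' : S, (u' : X) = lineMap L x u ∧ e u' = g (e ⟨x, hxS⟩) (e u) := by
      intro u
      by_cases h : ∃ w, ({x, (u : X), w} : Set X) ∈ L
      · obtain ⟨w, hw⟩ := h
        obtain ⟨n1, n2, n3⟩ := three_ne (hL.2.1 _ hw)
        have hwS : w ∈ S := hS _ hw x hxS u u.2 n1 (Or.inl rfl) (Or.inr (Or.inl rfl))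
          (Or.inr (Or.inr rfl))
        refine ⟨⟨w, hwS⟩, (lineMap_eq hL hw).symm, ?_⟩
        have himg := hin _ hw (by
          rintro a (rfl | rfl | rfl)
          exacts [hxS, u.2, hwS])
        have e1 : {v : S | (v : X) ∈ ({x, (u : X), w} : Set X)} = {⟨x, hxS⟩, u, ⟨w, hwS⟩} := by
          apply Set.ext; intro v
          simp only [Set.mem_setOf_eq, Set.mem_insert_iff, Set.mem_singleton_iff, Subtype.ext_iff]
        rw [e1, Set.image_insert_eq, Set.image_pair] at himg
        obtain ⟨c1, c2⟩ := hcolt _ _ _ (fun e' => n1 (congrArg Subtype.val (e.injective e')))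
          (fun e' => n2 (congrArg Subtype.val (e.injective e')).symm)
          (fun e' => n3 (congrArg Subtype.val (e.injective e')).symm) himg
        rw [c2, (hg _ _).1 c1]
      · refine ⟨u, (lineMap_fixed hL fun w hw => h ⟨w, hw⟩).symm, ?_⟩
        refine ((hg _ _).2 fun hc => h ?_).symm
        obtain ⟨l, hl, -, hlm⟩ := hout _ _ hc
        have hxl : x ∈ l := (hlm ⟨x, hxS⟩).mpr (Or.inl rfl)
        have hul : (u : X) ∈ l := (hlm u).mpr (Or.inr (Or.inl rfl))
        by_cases hxu : x = u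
        · have hexu : e ⟨x, hxS⟩ = e u := congrArg e (Subtype.ext hxu)
          rw [hexu] at hc
          exact absurd hc (hirr _)
        · obtain ⟨w, -, -, rfl⟩ := exists_third hL hl hxl hul hxu
          exact ⟨w, hl⟩
    obtain ⟨i, j, hij, hmij⟩ := (hlines _).mp (hin m hm hmS)
    obtain ⟨q1, q2⟩ := hpres (e ⟨x, hxS⟩) i j hij
    obtain ⟨l', hl', hl'S, hlm'⟩ := hout _ _ q1
    have : lineMap L x '' m = l' := by
      apply Set.ext; intro a
      constructor
      · rintro ⟨u, hu, rfl⟩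
        obtain ⟨u', hu', heu⟩ := hT ⟨u, hmS hu⟩
        rw [← hu']
        refine (hlm' u').mpr ?_
        rw [heu]
        have : e ⟨u, hmS hu⟩ ∈ ({i, j, t i j} : Set M) := hmij ▸ ⟨⟨u, hmS hu⟩, hu, rfl⟩
        rcases this with h' | h' | h' <;> rw [h']
        · exact Or.inl rfl
        · exact Or.inr (Or.inl rfl)
        · exact Or.inr (Or.inr q2)
      · intro ha
        have haS := hl'S ha
        have ha' := (hlm' ⟨a, haS⟩).mp ha
        obtain ⟨k, hk, hak⟩ : ∃ k ∈ ({i, j, t i j} : Set M), e ⟨a, haS⟩ = g (e ⟨x, hxS⟩) k := by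
          rcases ha' with h' | h' | h'
          · exact ⟨i, Or.inl rfl, h'⟩
          · exact ⟨j, Or.inr (Or.inl rfl), h'⟩
          · exact ⟨_, Or.inr (Or.inr rfl), h'.trans q2.symm⟩
        rw [← hmij] at hk
        obtain ⟨u, hu, rfl⟩ := hk
        obtain ⟨u', hu', heu⟩ := hT u
        refine ⟨u, hu, ?_⟩
        rw [← hu']
        exact congrArg Subtype.val (e.injective (heu.trans hak.symm))
    rw [this]; exact hl'
  rcases hplane with h | h
  · exact main _ planeModel_dual h
  · exact main _ planeModel_affine h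

/-- The involution `t(x)`. -/
noncomputable def tau (hL : IsFischerSpace L) (x : X) : Equiv.Perm X :=
  Function.Involutive.toPerm (lineMap L x) (lineMap_lineMap hL x)

theorem tau_conj (hL : IsFischerSpace L) (w x : X) :
    tau hL w * tau hL x * tau hL w = tau hL (lineMap L w x) := by
  refine Equiv.ext fun y => ?_
  show lineMap L w (lineMap L x (lineMap L w y)) = lineMap L (lineMap L w x) y
  obtain ⟨u, rfl⟩ : ∃ u, lineMap L w u = y := ⟨lineMap L w y, lineMap_lineMap hL w y⟩
  rw [lineMap_lineMap hL]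
  by_cases h : ∃ z, ({x, u, z} : Set X) ∈ L
  · obtain ⟨z, hz⟩ := h
    rw [lineMap_eq hL hz]
    have := lineMap_image_line hL w hz
    rw [Set.image_insert_eq, Set.image_pair] at this
    rw [lineMap_eq hL this]
  · rw [lineMap_fixed hL fun z hz => h ⟨z, hz⟩]
    refine (lineMap_fixed hL fun z hz => ?_).symm
    have := lineMap_image_line hL w hz
    rw [Set.image_insert_eq, Set.image_pair, lineMap_lineMap hL, lineMap_lineMap hL] at this
    exact h ⟨_, this⟩

theorem fischer_involutions (hL : IsFischerSpace L) (hnd : IsNondegenerate L) :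
    (∀ x : X, ∃ σ : Equiv.Perm X, ⇑σ = lineMap L x ∧ orderOf σ = 2 ∧ IsIso L L σ) ∧
      IsThreeTranspositionSet {σ : Equiv.Perm X | ∃ x : X, ⇑σ = lineMap L x} := by
  have hsq : ∀ x, tau hL x * tau hL x = 1 := fun x => Equiv.ext fun y => lineMap_lineMap hL x y
  have hord : ∀ x, orderOf (tau hL x) = 2 := by
    intro x
    refine orderOf_eq_prime (by rw [pow_two, hsq]) ?_
    obtain ⟨l, hl, hxl⟩ := hnd x
    obtain ⟨y, hy, hyx⟩ := Set.exists_ne_of_one_lt_ncard (by rw [hL.2.1 l hl]; norm_num) x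
    obtain ⟨z, -, hzy, rfl⟩ := exists_third hL hl hxl hy hyx.symm
    intro h
    have : lineMap L x y = y := DFunLike.congr_fun h y
    exact hzy ((lineMap_eq hL hl).symm.trans this)
  refine ⟨fun x => ⟨tau hL x, rfl, hord x, fun l => ⟨fun hl => lineMap_image_line hL x hl, fun hl => ?_⟩⟩, ?_, ?_⟩
  · have := lineMap_image_line hL x hl
    rwa [show (⇑(tau hL x) : X → X) = lineMap L x from rfl, Set.image_image,
      Set.image_congr (fun y _ => lineMap_lineMap hL x y), Set.image_id'] at this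
  · rintro σ ⟨x, hx⟩
    rw [show σ = tau hL x from DFunLike.coe_injective hx]
    exact hord x
  · rintro σ ⟨x, hx⟩ ρ ⟨y, hy⟩
    rw [show σ = tau hL x from DFunLike.coe_injective hx, show ρ = tau hL y from DFunLike.coe_injective hy]
    by_cases h : ∃ z, ({x, y, z} : Set X) ∈ L
    · obtain ⟨z, hz⟩ := h
      right
      have h1 := tau_conj hL x y
      have h2 := tau_conj hL y x
      rw [lineMap_eq hL hz] at h1
      rw [lineMap_eq hL (by rw [Set.insert_comm y x {z}]; exact hz)] at h2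
      calc (tau hL x * tau hL y) ^ 3
          = (tau hL x * tau hL y * tau hL x) * (tau hL y * tau hL x * tau hL y) := by
            simp only [pow_succ, pow_zero, one_mul, mul_assoc]
        _ = 1 := by rw [h1, h2, hsq]
    · left
      have h1 := tau_conj hL x y
      rw [lineMap_fixed hL fun z hz => h ⟨z, hz⟩] at h1
      calc (tau hL x * tau hL y) ^ 2 = (tau hL x * tau hL y * tau hL x) * tau hL y := by
            simp only [pow_succ, pow_zero, one_mul, mul_assoc]
        _ = 1 := by rw [h1, hsq]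

end space

end CfsgLib.ThreeTransp
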