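import Cfsg.Agent.Lib.ThreeTransp.Sym4

/-! Homomorphisms out of `Sym(5)` from the Coxeter relations. -/

set_option autoImplicit false

namespace CfsgLib.ThreeTransp

variable {G : Type*} [Group G]

/-- Involutions satisfying the relations of four adjacent transpositions. -/
structure Rel5 (a b c d : G) : Prop where
  r4 : Rel4 a b c
  dd : d * d = 1
  cdc : c * (d * c) = d * (c * d)
  ad : a * d = d * a
  bd : b * d = d * b

def gen5 (a b c d : G) : Fin 4 → G := ![a, b, c, d]

def gR5 (a b c d : G) : Fin 5 → G := ![1, d, c * d, b * (c * d), a * (b * (c * d))]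

/-- `gen5 s * R i = R i' * T t` where `T = ![1, a, b, c]`. -/
def stepR5 : Fin 4 → Fin 5 → Fin 5 × Fin 4 :=
  ![![(0, 1), (1, 1), (2, 1), (4, 0), (3, 0)],
    ![(0, 2), (1, 2), (3, 0), (2, 0), (4, 1)],
    ![(0, 3), (2, 0), (1, 0), (3, 2), (4, 2)],
    ![(1, 0), (0, 0), (2, 3), (3, 3), (4, 3)]]

def stepT : Fin 4 → St → St := ![id, step 0, step 1, step 2]

def step5 (s : Fin 4) (x : Fin 5 × St) : Fin 5 × St :=
  ((stepR5 s x.1).1, stepT (stepR5 s x.1).2 x.2)

def ev5 (a b c d : G) (x : Fin 5 × St) : G := gR5 a b c d x.1 * ev a b c x.2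

theorem gen5_mul_gR5 {a b c d : G} (h : Rel5 a b c d) (s : Fin 4) (i : Fin 5) :
    gen5 a b c d s * gR5 a b c d i
      = gR5 a b c d (stepR5 s i).1 * ![1, a, b, c] (stepR5 s i).2 := by
  have aa' := h.r4.aa'
  have bb' := h.r4.bb'
  have cc' := h.r4.cc'
  have dd' : ∀ x : G, d * (d * x) = x := fun x => by rw [← mul_assoc, h.dd, one_mul]
  have ad' : ∀ x : G, d * (a * x) = a * (d * x) := fun x => by
    rw [← mul_assoc, ← h.ad, mul_assoc]
  have bd' : ∀ x : G, d * (b * x) = b * (d * x) := fun x => by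
    rw [← mul_assoc, ← h.bd, mul_assoc]
  have ac' : ∀ x : G, c * (a * x) = a * (c * x) := fun x => by
    rw [← mul_assoc, ← h.r4.ac, mul_assoc]
  have e1 : ∀ x : G, b * (a * (b * x)) = a * (b * (a * x)) := fun x => by
    calc b * (a * (b * x)) = (b * (a * b)) * x := by simp only [mul_assoc]
      _ = _ := by rw [← h.r4.aba]; simp only [mul_assoc]
  have e2 : ∀ x : G, c * (b * (c * x)) = b * (c * (b * x)) := fun x => by
    calc c * (b * (c * x)) = (c * (b * c)) * x := by simp only [mul_assoc]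
      _ = _ := by rw [← h.r4.bcb]; simp only [mul_assoc]
  have e3 : ∀ x : G, d * (c * (d * x)) = c * (d * (c * x)) := fun x => by
    calc d * (c * (d * x)) = (d * (c * d)) * x := by simp only [mul_assoc]
      _ = _ := by rw [← h.cdc]; simp only [mul_assoc]
  have f1 := h.cdc
  have g1 : c * (d * a) = a * (c * d) := by rw [← h.ad, ← mul_assoc, ← h.r4.ac, mul_assoc]
  fin_cases s <;> fin_cases i <;>
    simp [gen5, gR5, stepR5, mul_assoc, aa', bb', cc', dd', ad', bd', ac', e1, e2, e3,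
      h.r4.aa, h.r4.bb, h.r4.cc, h.dd, h.ad, h.bd, h.r4.ac, ← f1, g1]

theorem gen5_mul_ev5 {a b c d : G} (h : Rel5 a b c d) (s : Fin 4) (x : Fin 5 × St) :
    gen5 a b c d s * ev5 a b c d x = ev5 a b c d (step5 s x) := by
  obtain ⟨i, y⟩ := x
  simp only [ev5, step5]
  rw [← mul_assoc, gen5_mul_gR5 h, mul_assoc]
  congr 1
  generalize (stepR5 s i).2 = t
  fin_cases t
  · show (1 : G) * _ = _
    rw [one_mul]; rfl
  · exact gen_mul_ev h.r4 0 y
  · exact gen_mul_ev h.r4 1 y
  · exact gen_mul_ev h.r4 2 y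

/-- The four adjacent transpositions of five letters. -/
def pgen5 : Fin 4 → Equiv.Perm (Fin 5) :=
  ![Equiv.swap 0 1, Equiv.swap 1 2, Equiv.swap 2 3, Equiv.swap 3 4]

theorem rel5_perm : Rel5 (pgen5 0) (pgen5 1) (pgen5 2) (pgen5 3) :=
  ⟨⟨by decide, by decide, by decide, by decide, by decide, by decide⟩,
    by decide, by decide, by decide, by decide⟩

def pev5 (x : Fin 5 × St) : Equiv.Perm (Fin 5) := ev5 (pgen5 0) (pgen5 1) (pgen5 2) (pgen5 3) x

def inv5 (π : Equiv.Perm (Fin 5)) : Fin 5 × St :=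
  ((List.finRange 5).findSome? fun i =>
    if gR5 (pgen5 0) (pgen5 1) (pgen5 2) (pgen5 3) i 4 = π 4 then
      (List.finRange 4).findSome? fun j => (List.finRange 3).findSome? fun k =>
        (List.finRange 2).findSome? fun l =>
          if pev5 (i, j, k, l) = π then some (i, j, k, l) else none
    else none).getD (0, 0, 0, 0)

theorem pev5_inv5 : ∀ π : Equiv.Perm (Fin 5), pev5 (inv5 π) = π := by decide +kernel

theorem inv5_pev5 : ∀ x : Fin 5 × St, inv5 (pev5 x) = x := by decide +kernel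

theorem pgen5_closure : Submonoid.closure (Set.range pgen5) = ⊤ := by
  refine top_le_iff.mp fun τ _ => ?_
  have hs : ∀ s, pgen5 s ∈ Submonoid.closure (Set.range pgen5) :=
    fun s => Submonoid.subset_closure ⟨s, rfl⟩
  have ha := hs 0; have hb := hs 1; have hc := hs 2; have hd := hs 3
  rw [← pev5_inv5 τ]
  obtain ⟨i, j, k, l⟩ := inv5 τ
  refine Submonoid.mul_mem _ ?_ (Submonoid.mul_mem _ (Submonoid.mul_mem _ ?_ ?_) ?_)
  · fin_cases i
    exacts [Submonoid.one_mem _, hd, Submonoid.mul_mem _ hc hd,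
      Submonoid.mul_mem _ hb (Submonoid.mul_mem _ hc hd),
      Submonoid.mul_mem _ ha (Submonoid.mul_mem _ hb (Submonoid.mul_mem _ hc hd))]
  · fin_cases j
    exacts [Submonoid.one_mem _, hc, Submonoid.mul_mem _ hb hc,
      Submonoid.mul_mem _ ha (Submonoid.mul_mem _ hb hc)]
  · fin_cases k
    exacts [Submonoid.one_mem _, hb, Submonoid.mul_mem _ ha hb]
  · fin_cases l
    exacts [Submonoid.one_mem _, ha]

/-- The homomorphism `Sym(5) → G` determined by the Coxeter relations. -/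
noncomputable def hom5 {a b c d : G} (h : Rel5 a b c d) : Equiv.Perm (Fin 5) →* G :=
  MonoidHom.mk' (fun π => ev5 a b c d (inv5 π)) fun π σ => by
    have hstep : ∀ (s : Fin 4) (τ : Equiv.Perm (Fin 5)),
        ev5 a b c d (inv5 (pgen5 s * τ)) = gen5 a b c d s * ev5 a b c d (inv5 τ) := by
      intro s τ
      have hs : pgen5 s = gen5 (pgen5 0) (pgen5 1) (pgen5 2) (pgen5 3) s := by fin_cases s <;> rfl
      conv_lhs => rw [← pev5_inv5 τ]
      rw [hs, pev5, gen5_mul_ev5 rel5_perm, ← pev5, inv5_pev5, gen5_mul_ev5 h]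
    have hone : ev5 a b c d (inv5 (1 : Equiv.Perm (Fin 5))) = 1 := by
      have h1 : inv5 (1 : Equiv.Perm (Fin 5)) = (0, 0, 0, 0) := by decide +kernel
      rw [h1]; simp [ev5, gR5, ev, gR, gQ, gA]
    have hπ : π ∈ Submonoid.closure (Set.range pgen5) := pgen5_closure ▸ Submonoid.mem_top π
    induction hπ using Submonoid.closure_induction generalizing σ with
    | mem x hx =>
      obtain ⟨s, rfl⟩ := hx
      rw [hstep]
      congr 1
      have := hstep s 1
      rw [mul_one, hone, mul_one] at this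
      exact this.symm
    | one => rw [one_mul, hone, one_mul]
    | mul x y _ _ ihx ihy => rw [mul_assoc, ihx, ihy, ihx, mul_assoc]

theorem hom5_gen {a b c d : G} (h : Rel5 a b c d) (s : Fin 4) :
    hom5 h (pgen5 s) = gen5 a b c d s := by
  have h0 : inv5 (pgen5 0) = (0, 0, 0, 1) := by decide +kernel
  have h1 : inv5 (pgen5 1) = (0, 0, 1, 0) := by decide +kernel
  have h2 : inv5 (pgen5 2) = (0, 1, 0, 0) := by decide +kernel
  have h3 : inv5 (pgen5 3) = (1, 0, 0, 0) := by decide +kernel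
  show ev5 a b c d (inv5 (pgen5 s)) = _
  fin_cases s
  · show ev5 a b c d (inv5 (pgen5 0)) = a
    rw [h0]; simp [ev5, gR5, ev, gR, gQ, gA]
  · show ev5 a b c d (inv5 (pgen5 1)) = b
    rw [h1]; simp [ev5, gR5, ev, gR, gQ, gA]
  · show ev5 a b c d (inv5 (pgen5 2)) = c
    rw [h2]; simp [ev5, gR5, ev, gR, gQ, gA]
  · show ev5 a b c d (inv5 (pgen5 3)) = d
    rw [h3]; simp [ev5, gR5, ev, gR, gQ, gA]

/-- A nontrivial normal closure in `Sym(5)` contains a nontrivial element fixing the last letter. -/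
theorem exists_comm_fixing : ∀ π : Equiv.Perm (Fin 5), π ≠ 1 →
    ∃ i j k : Fin 5, π * Equiv.swap i j * π⁻¹ * Equiv.swap i j ≠ 1 ∧
      (Equiv.swap k 4 * (π * Equiv.swap i j * π⁻¹ * Equiv.swap i j) * Equiv.swap k 4) 4 = 4 := by
  decide +kernel

theorem hom5_injective {a b c d : G} (h : Rel5 a b c d) (hne : a ≠ c) :
    Function.Injective (hom5 h) := by
  rw [injective_iff_map_eq_one]
  intro π hπ
  by_contra h1
  obtain ⟨i, j, k, hne0, hfix⟩ := exists_comm_fixing π h1
  obtain ⟨τ, hτ⟩ : ∃ τ, τ = Equiv.swap k 4 * (π * Equiv.swap i j * π⁻¹ * Equiv.swap i j) *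
      Equiv.swap k 4 := ⟨_, rfl⟩
  have hne1 : Equiv.swap k 4 * (π * Equiv.swap i j * π⁻¹ * Equiv.swap i j) * Equiv.swap k 4 ≠ 1 := by
    intro hh
    apply hne0
    have h6 := congrArg (fun z => Equiv.swap k 4 * z * Equiv.swap k 4) hh
    simpa [mul_assoc] using h6
  rw [← hτ] at hfix hne1
  have hτ1 : hom5 h τ = 1 := by
    rw [hτ]
    simp only [map_mul, map_inv, hπ, one_mul, inv_one, mul_one]
    simp only [← map_mul]
    rw [Equiv.swap_mul_self, mul_one, Equiv.swap_mul_self, map_one]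
  obtain ⟨⟨i', y⟩, hx⟩ : ∃ x, x = inv5 τ := ⟨_, rfl⟩
  have hτ2 : pev5 (i', y) = τ := hx ▸ pev5_inv5 τ
  have hlast : ∀ (i : Fin 5) (y : St), pev5 (i, y) 4 = 4 → i = 0 := by decide +kernel
  obtain rfl := hlast i' y (by rw [hτ2]; exact hfix)
  have : ev a b c y = 1 := by
    have h2 : ev5 a b c d (inv5 τ) = 1 := hτ1
    rw [← hx] at h2
    simpa [ev5, gR5] using h2
  have h3 : hom4 h.r4 (ev pa pb pc y) = 1 := by
    show ev a b c (inv' (ev pa pb pc y)) = 1
    rw [inv'_ev]; exact this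
  have h4 := (injective_iff_map_eq_one _).mp (hom4_injective h.r4 hne) _ h3
  have h5 : y = (0, 0, 0) := by
    rw [← inv'_ev y, h4]; decide +kernel
  apply hne1
  rw [← hτ2, h5]
  decide +kernel

end CfsgLib.ThreeTransp
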