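import Cfsg.Agent.Lib.ThreeTransp.Elem
import Cfsg.Agent.Lib.ThreeTransp.Sym5

/-! 3-transpositions in which every `⟨D_d⟩` is `Sym(3)`. -/

set_option autoImplicit false

namespace CfsgLib.LocalS3

open Cfsg Subgroup CfsgLib.ThreeTransp

variable {G : Type*} [Group G] {D : Set G}

/-- The hypothesis: a conjugation-invariant set of 3-transpositions with three pairwise
non-commuting elements in each perp. -/
structure Hyp (D : Set G) : Prop where
  tt : IsThreeTranspositionSet D
  inv : ∀ g : G, ∀ d ∈ D, g * d * g⁻¹ ∈ D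
  card : ∀ d ∈ D, (perp D d).ncard = 3
  nc : ∀ d ∈ D, ∀ y ∈ perp D d, ∀ z ∈ perp D d, y ≠ z → ¬ Commute y z

theorem hyp_of_iso [Finite G] (hD : IsThreeTranspositionSet D)
    (hconj : ∀ g : G, ∀ d ∈ D, g * d * g⁻¹ ∈ D)
    (hloc : ∀ d ∈ D, Nonempty (↥(closure (perp D d)) ≃* Equiv.Perm (Fin 3))) : Hyp D := by
  have key : ∀ d ∈ D, (perp D d).ncard = 3 ∧
      ∀ y ∈ perp D d, ∀ z ∈ perp D d, y ≠ z → ¬ Commute y z := by
    intro d hd
    obtain ⟨e⟩ := hloc d hd
    obtain ⟨a, ha, b, hb, hab⟩ : ∃ a ∈ perp D d, ∃ b ∈ perp D d, ¬ Commute a b := by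
      by_contra hcon
      push_neg at hcon
      haveI := isMulCommutative_closure_of_commute hcon
      have h1 : ∀ σ τ : Equiv.Perm (Fin 3), σ * τ = τ * σ := fun σ τ => by
        have h2 := congrArg e (mul_comm' (e.symm σ) (e.symm τ))
        simpa using h2
      exact absurd (h1 (Equiv.swap 0 1) (Equiv.swap 1 2)) (by decide)
    have hf : ∀ y : perp D d, orderOf (e ⟨y.1, subset_closure y.2⟩) = 2 := fun y => by
      rw [MulEquiv.orderOf_eq, ← Subgroup.orderOf_coe]
      exact hD.1 y.1 y.2.1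
    have h3 : ∀ σ : Equiv.Perm (Fin 3), σ ^ 2 = 1 → σ ≠ 1 →
        σ = Equiv.swap 0 1 ∨ σ = Equiv.swap 0 2 ∨ σ = Equiv.swap 1 2 := by decide +kernel
    obtain ⟨S, hSdef⟩ : ∃ S : Set (Equiv.Perm (Fin 3)),
        S = {Equiv.swap 0 1, Equiv.swap 0 2, Equiv.swap 1 2} := ⟨_, rfl⟩
    have hmem : ∀ y : perp D d, e ⟨y.1, subset_closure y.2⟩ ∈ S := fun y => by
      have h2 := hf y
      rcases h3 _ (by rw [← h2]; exact pow_orderOf_eq_one _)
        (fun h => by rw [h, orderOf_one] at h2; omega) with h | h | h <;> simp [hSdef, h]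
    have hS : S.ncard ≤ 3 := by
      have := Set.ncard_insert_le (Equiv.swap (0 : Fin 3) 1) {Equiv.swap 0 2, Equiv.swap 1 2}
      have := Set.ncard_insert_le (Equiv.swap (0 : Fin 3) 2) {Equiv.swap 1 2}
      have := Set.ncard_singleton (Equiv.swap (1 : Fin 3) 2)
      rw [hSdef]
      omega
    have hle : (perp D d).ncard ≤ 3 := by
      refine le_trans ?_ hS
      rw [← Nat.card_coe_set_eq, ← Nat.card_coe_set_eq]
      refine Nat.card_le_card_of_injective (fun y => (⟨_, hmem y⟩ : S)) fun y z h => ?_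
      exact Subtype.ext (congrArg Subtype.val (e.injective (Subtype.ext_iff.mp h)) :)
    have hc : a * b * a⁻¹ ∈ perp D d := by
      have h1 : Commute d (a * b * a⁻¹) := (ha.2.2.mul_right hb.2.2).mul_right ha.2.2.inv_right
      refine ⟨hconj a b hb.1, fun h => hb.2.1 ?_, h1⟩
      calc b = a⁻¹ * (a * b * a⁻¹) * a := by group
        _ = a⁻¹ * d * a := by rw [h]
        _ = d := by rw [mul_assoc, ha.2.2.eq, inv_mul_cancel_left]
    have hac : ¬ Commute a (a * b * a⁻¹) := fun h => hab (by
      have h2 := commute_conj a⁻¹ h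
      simpa [mul_assoc] using h2)
    have hbc : ¬ Commute b (a * b * a⁻¹) := by
      intro h
      apply hab
      rw [conj_eq hD ha.1 hb.1 hab] at h
      have h2 := commute_conj b h
      rw [inv_eq hD hb.1, mul_self hD hb.1, one_mul] at h2
      have h3 : b * (b * a * b) * b = a := by
        simp only [mul_assoc]
        rw [mul_self hD hb.1, mul_one, ← mul_assoc, mul_self hD hb.1, one_mul]
      rw [h3] at h2
      exact h2.symm
    have hT : perp D d = {a, b, a * b * a⁻¹} := by
      have hsub : ({a, b, a * b * a⁻¹} : Set G) ⊆ perp D d := by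
        intro y hy
        rcases hy with rfl | rfl | rfl
        exacts [ha, hb, hc]
      refine (Set.eq_of_subset_of_ncard_le hsub ?_ (Set.toFinite _)).symm
      rw [Set.ncard_eq_three.mpr ⟨a, b, _, fun h => hab (h ▸ Commute.refl a),
        fun h => hac (by rw [← h]), fun h => hbc (by rw [← h]), rfl⟩]
      exact hle
    refine ⟨?_, ?_⟩
    · rw [hT]
      exact Set.ncard_eq_three.mpr ⟨a, b, _, fun h => hab (h ▸ Commute.refl a),
        fun h => hac (by rw [← h]), fun h => hbc (by rw [← h]), rfl⟩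
    · rw [hT]
      intro y hy z hz hne
      simp only [Set.mem_insert_iff, Set.mem_singleton_iff] at hy hz
      rcases hy with rfl | rfl | rfl <;> rcases hz with rfl | rfl | rfl <;>
        first
        | exact absurd rfl hne | exact hab | exact hac | exact hbc
        | exact fun h => hab h.symm | exact fun h => hac h.symm | exact fun h => hbc h.symm
  exact ⟨hD, hconj, fun d hd => (key d hd).1, fun d hd => (key d hd).2⟩

namespace Hyp

variable (h : Hyp D)
include h

theorem sq {a : G} (ha : a ∈ D) : a * a = 1 := mul_self h.tt ha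

theorem sq' {a : G} (ha : a ∈ D) (x : G) : a * (a * x) = x := by
  rw [← mul_assoc, h.sq ha, one_mul]

theorem mem2 {a b : G} (ha : a ∈ D) (hb : b ∈ D) : a * b * a ∈ D := by
  have := h.inv a b hb
  rwa [inv_eq h.tt ha] at this

theorem symm {a b : G} (ha : a ∈ D) (hb : b ∈ perp D a) : a ∈ perp D b :=
  ⟨ha, hb.2.1.symm, hb.2.2.symm⟩

theorem perp_conj {g y z : G} (hy : y ∈ D) (hz : z ∈ perp D y) :
    g * z * g⁻¹ ∈ perp D (g * y * g⁻¹) := by
  refine ⟨h.inv g z hz.1, fun e => hz.2.1 ?_, commute_conj g hz.2.2⟩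
  exact mul_left_cancel (mul_right_cancel e)

theorem perp_conj_eq {g y y' : G} (hy : y ∈ D) (hy' : y' ∈ D) (e : perp D y' = perp D y) :
    perp D (g * y' * g⁻¹) = perp D (g * y * g⁻¹) := by
  have key : ∀ u ∈ D, ∀ u' ∈ D, perp D u' = perp D u →
      perp D (g * u' * g⁻¹) ⊆ perp D (g * u * g⁻¹) := by
    intro u hu u' hu' eu z hz
    have hz' : g⁻¹ * z * g⁻¹⁻¹ ∈ perp D (g⁻¹ * (g * u' * g⁻¹) * g⁻¹⁻¹) :=
      h.perp_conj (h.inv g u' hu') hz
    rw [show g⁻¹ * (g * u' * g⁻¹) * g⁻¹⁻¹ = u' by group, eu] at hz'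
    have := h.perp_conj (g := g) hu hz'
    rwa [show g * (g⁻¹ * z * g⁻¹⁻¹) * g⁻¹ = z by group] at this
  exact Set.Subset.antisymm (key y hy y' hy' e) (key y' hy' y hy e.symm)

theorem finite_perp {y : G} (hy : y ∈ D) : (perp D y).Finite :=
  Set.finite_of_ncard_pos (by rw [h.card y hy]; norm_num)

/-- If `a` centralises an element of order 3 inverted by `e`, where `a`, `e` do not commute,
the element is trivial. -/
theorem inverted_eq_one {a e r : G} (ha : a ∈ D) (he : e ∈ D) (hae : ¬ Commute a e)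
    (hr : r ^ 3 = 1) (hei : e * r * e = r⁻¹) (hac : Commute a r) : r = 1 := by
  have hara : a * r * a = r := by rw [hac.eq, mul_assoc, h.sq ha, mul_one]
  have hara' : a * r⁻¹ * a = r⁻¹ := by rw [hac.inv_right.eq, mul_assoc, h.sq ha, mul_one]
  have heri : e * r⁻¹ * e = r := by
    rw [← hei]; simp only [mul_assoc]; rw [h.sq he, mul_one, h.sq' he]
  have b := braid h.tt ha he hae
  have h1 : (a * e * a) * r * (a * e * a) = r⁻¹ := by
    calc (a * e * a) * r * (a * e * a) = a * (e * (a * r * a) * e) * a := by simp only [mul_assoc]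
      _ = r⁻¹ := by rw [hara, hei, hara']
  have h2 : (e * a * e) * r * (e * a * e) = r := by
    calc (e * a * e) * r * (e * a * e) = e * (a * (e * r * e) * a) * e := by simp only [mul_assoc]
      _ = r := by rw [hei, hara', heri]
  rw [b, h2] at h1
  have h3 : r * r = 1 := by nth_rw 1 [h1]; exact inv_mul_cancel r
  calc r = r ^ 3 * (r * r)⁻¹ := by group
    _ = 1 := by rw [hr, h3]; simp

/-- The colour of the edge `{d, a}` seen from `e`. -/
theorem col_mem {d a e : G} (hd : d ∈ D) (ha : a ∈ perp D d) (he : e ∈ D)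
    (hde : ¬ Commute d e) (hae : ¬ Commute a e) : d * e * a * e * d ∈ perp D e := by
  have b1 := braid h.tt hd he hde
  have haD := ha.1
  have hdd := h.sq hd
  have hmem : d * e * a * e * d ∈ D := by
    have := h.inv (d * e) a haD
    rwa [mul_inv_rev, inv_eq h.tt hd, inv_eq h.tt he, ← mul_assoc, ] at this
  have hx : e * (d * e * a * e * d) * e = d * e * a * e * d := by
    calc e * (d * e * a * e * d) * e = (e * d * e) * a * (e * d * e) := by simp only [mul_assoc]
      _ = d * e * (d * a * d) * e * d := by rw [← b1]; simp only [mul_assoc]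
      _ = _ := by rw [ha.2.2.eq, mul_assoc a d d, hdd, mul_one]
  refine ⟨hmem, fun heq => ?_, ?_⟩
  · apply ha.2.1
    have e1 : a = e * (d * (d * e * a * e * d) * d) * e := by
      simp only [mul_assoc, h.sq' hd, hdd, mul_one, h.sq' he, h.sq he]
    rw [e1, heq]
    calc e * (d * e * d) * e = e * (e * d * e) * e := by rw [b1]
      _ = d := by simp only [mul_assoc, h.sq' he, h.sq he, mul_one]
  · show e * (d * e * a * e * d) = d * e * a * e * d * e
    nth_rw 2 [← hx]
    rw [mul_assoc _ e e, h.sq he, mul_one]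

theorem col_symm {d a e : G} (hd : d ∈ D) (ha : a ∈ perp D d) (he : e ∈ D)
    (hde : ¬ Commute d e) (hae : ¬ Commute a e) : d * e * a * e * d = a * e * d * e * a := by
  calc d * e * a * e * d = d * (e * a * e) * d := by simp only [mul_assoc]
    _ = d * (a * e * a) * d := by rw [braid h.tt ha.1 he hae]
    _ = (d * a) * e * (a * d) := by simp only [mul_assoc]
    _ = (a * d) * e * (d * a) := by rw [ha.2.2.eq]
    _ = a * (d * e * d) * a := by simp only [mul_assoc]
    _ = a * (e * d * e) * a := by rw [braid h.tt hd he hde]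
    _ = _ := by simp only [mul_assoc]

theorem col_inj {d a a' e : G} (h1 : d * e * a * e * d = d * e * a' * e * d) : a = a' := by
  simpa [mul_assoc] using h1

end Hyp

end CfsgLib.LocalS3
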