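import Cfsg.Agent.Lib.ThreeTransp.LocalS3

/-! The two possible commuting components when every `⟨D_d⟩` is `Sym(3)`. -/

set_option autoImplicit false

namespace CfsgLib.LocalS3

open Cfsg Subgroup CfsgLib.ThreeTransp

variable {G : Type*} [Group G] {D : Set G}

set_option synthInstance.maxSize 4000 in
set_option synthInstance.maxHeartbeats 400000 in
theorem no_colouring : ∀ o0 o1 : Fin 3, o1 ≠ o0 → ∀ o2, o2 ≠ o1 → ∀ o3, o3 ≠ o2 → ∀ o4, o4 ≠ o3 → o4 ≠ o0 →
    ∀ s0, s0 ≠ o4 → s0 ≠ o0 → ∀ s1, s1 ≠ o0 → s1 ≠ o1 → ∀ s2, s2 ≠ o1 → s2 ≠ o2 →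
    ∀ s3, s3 ≠ o2 → s3 ≠ o3 → ∀ s4, s4 ≠ o3 → s4 ≠ o4 →
    ∀ i02, i02 ≠ s0 → i02 ≠ s2 → ∀ i03, i03 ≠ s0 → i03 ≠ s3 → i03 ≠ i02 →
    ∀ i13, i13 ≠ s1 → i13 ≠ s3 → i13 ≠ i03 → ∀ i14, i14 ≠ s1 → i14 ≠ s4 → i14 ≠ i13 →
    ∀ i24, i24 ≠ s2 → i24 ≠ s4 → i24 ≠ i02 → i24 ≠ i14 → False := by decide +kernel

theorem disjoint_commute : ∀ i j : Fin 5, i < j →
    ∃ k l m : Fin 5, k < l ∧ l < m ∧ k ∉ ({i, j} : Finset (Fin 5)) ∧ l ∉ ({i, j} : Finset (Fin 5)) ∧
      m ∉ ({i, j} : Finset (Fin 5)) := by decide +kernel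

theorem three_perms_commute : ∀ σ τ : Equiv.Perm (Fin 3), σ ^ 3 = 1 → τ ^ 3 = 1 → σ * τ = τ * σ := by
  decide +kernel

theorem conjMem_iff {g v : G} : g * v * g⁻¹ = v ↔ g * v = v * g := by
  rw [mul_inv_eq_iff_eq_mul]

namespace Hyp

variable (h : Hyp D)
include h

theorem twin_facts {e e' : G} (he : e ∈ D) (he' : e' ∈ D) (hne : e' ≠ e)
    (htw : perp D e' = perp D e) :
    ¬ Commute e e' ∧ e * e' * e ∈ D ∧ perp D (e * e' * e) = perp D e ∧
      e * e' * e ≠ e ∧ e * e' * e ≠ e' := by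
  have hnc : ¬ Commute e e' := fun hc => by
    have h1 : e' ∈ perp D e := ⟨he', hne, hc⟩
    rw [← htw] at h1
    exact h1.2.1 rfl
  have h2 : perp D (e * e' * e⁻¹) = perp D (e * e * e⁻¹) := h.perp_conj_eq he he' htw
  rw [inv_eq h.tt he, h.sq he, one_mul] at h2
  refine ⟨hnc, h.mem2 he he', h2, fun heq => hne ?_, fun heq => hnc ?_⟩
  · calc e' = e * (e * e' * e) * e := by
          simp only [mul_assoc]; rw [h.sq he, mul_one, h.sq' he]
      _ = e := by rw [heq, h.sq he, one_mul]
  · show e * e' = e' * e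
    nth_rw 2 [← heq]
    rw [mul_assoc _ e e, h.sq he, mul_one]

theorem twins_of_square {d a b a1 : G} (hd : d ∈ D) (ha : a ∈ perp D d) (hb : b ∈ perp D d)
    (hab : a ≠ b) (ha1 : a1 ∈ perp D a) (hc : Commute a1 b) : perp D a1 = perp D d := by
  have hb1 : b ∈ perp D a1 := ⟨hb.1, fun e => h.nc d hd a ha b hb hab (e ▸ ha1.2.2), hc⟩
  have ha' : a ∈ perp D a1 := h.symm ha.1 ha1
  obtain ⟨habD, -⟩ : a * b * a⁻¹ ∈ D ∧ True := ⟨h.inv a b hb.1, trivial⟩
  have hnab := h.nc d hd a ha b hb hab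
  have hthird : ∀ u : G, a ∈ perp D u → b ∈ perp D u → a * b * a⁻¹ ∈ perp D u := by
    intro u hau hbu
    refine ⟨habD, fun e => hbu.2.1 ?_, (hau.2.2.mul_right hbu.2.2).mul_right hau.2.2.inv_right⟩
    calc b = a⁻¹ * (a * b * a⁻¹) * a := by group
      _ = a⁻¹ * u * a := by rw [e]
      _ = u := by rw [mul_assoc, hau.2.2.eq, inv_mul_cancel_left]
  have h3 : ({a, b, a * b * a⁻¹} : Set G).ncard = 3 := by
    refine Set.ncard_eq_three.mpr ⟨a, b, _, hab, fun e => hnab ?_, fun e => hnab ?_, rfl⟩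
    · have : b = a := by
        calc b = a⁻¹ * (a * b * a⁻¹) * a := by group
          _ = a := by rw [← e]; group
      rw [this]
    · exact ((conjMem_iff).mp e.symm)
  have eq3 : ∀ u ∈ D, a ∈ perp D u → b ∈ perp D u → perp D u = {a, b, a * b * a⁻¹} := by
    intro u hu hau hbu
    refine (Set.eq_of_subset_of_ncard_le ?_ (by rw [h.card u hu, h3]) (h.finite_perp hu)).symm
    intro y hy
    rcases hy with rfl | rfl | rfl
    exacts [hau, hbu, hthird u hau hbu]
  rw [eq3 a1 ha1.1 ha' hb1, eq3 d hd ha hb]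

theorem twin_of_perp {d a : G} (hd : d ∈ D) (ha : a ∈ perp D d)
    {d' : G} (hd' : d' ∈ D) (hne : d' ≠ d) (htw : perp D d' = perp D d) :
    ∀ y ∈ perp D d, perp D y = perp D a := by
  obtain ⟨hnc, hmem, htw'', hn1, hn2⟩ := h.twin_facts hd hd' hne htw
  have key : ∀ y ∈ perp D d, perp D y = {d, d', d * d' * d} := by
    intro y hy
    have hy' : y ∈ perp D d' := htw.symm ▸ hy
    have hy'' : y ∈ perp D (d * d' * d) := htw''.symm ▸ hy
    refine (Set.eq_of_subset_of_ncard_le ?_ ?_ (h.finite_perp hy.1)).symm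
    · intro z hz
      rcases hz with rfl | rfl | rfl
      exacts [h.symm hd hy, h.symm hd' hy', h.symm hmem hy'']
    · rw [h.card y hy.1, Set.ncard_eq_three.mpr ⟨d, d', d * d' * d, hne.symm, hn1.symm, hn2.symm, rfl⟩]
  intro y hy
  rw [key y hy, key a ha]

/-- Products of twins preserve every perp. -/
theorem twin_prod_preserves {e e' : G} (he : e ∈ D) (he' : e' ∈ D) (hne : e' ≠ e)
    (htw : perp D e' = perp D e) {y : G} (hy : y ∈ D) :
    perp D ((e * e') * y * (e * e')⁻¹) = perp D y := by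
  obtain ⟨hnc, hmem, htw'', hn1, hn2⟩ := h.twin_facts he he' hne htw
  have hinv : (e * e')⁻¹ = e' * e := by rw [mul_inv_rev, inv_eq h.tt he, inv_eq h.tt he']
  rw [hinv]
  have b1 := braid h.tt he he' hnc
  by_cases hye : y = e
  · rw [hye, show e * e' * e * (e' * e) = e' from ?_, htw]
    calc e * e' * e * (e' * e) = (e * e' * e) * e' * e := by simp only [mul_assoc]
      _ = e' * e * (e' * e') * e := by rw [b1]; simp only [mul_assoc]
      _ = e' := by rw [h.sq he', mul_one, mul_assoc, h.sq he, mul_one]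
  by_cases hye' : y = e'
  · rw [hye', show e * e' * e' * (e' * e) = e * e' * e from ?_, htw'', htw]
    rw [mul_assoc e e' e', h.sq he', mul_one, ← mul_assoc]
  by_cases hye'' : y = e * e' * e
  · rw [hye'', show e * e' * (e * e' * e) * (e' * e) = e from ?_, htw'']
    calc e * e' * (e * e' * e) * (e' * e) = e * e' * (e' * e * e') * (e' * e) := by rw [b1]
      _ = e := by
        simp only [mul_assoc, h.sq' he', h.sq' he, h.sq he, mul_one]
  by_cases hc : Commute y e
  · have h1 : y ∈ perp D e := ⟨hy, hye, hc.symm⟩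
    have h2 : y ∈ perp D e' := htw.symm ▸ h1
    rw [show e * e' * y * (e' * e) = y from ?_]
    calc e * e' * y * (e' * e) = e * (e' * y * e') * e := by simp only [mul_assoc]
      _ = e * y * e := by rw [h2.2.2.eq, mul_assoc y e' e', h.sq he', mul_one]
      _ = y := by rw [h1.2.2.eq, mul_assoc y e e, h.sq he, mul_one]
  have hc' : ¬ Commute y e' := fun hh => by
    have : y ∈ perp D e' := ⟨hy, hye', hh.symm⟩
    exact hc ((htw ▸ this).2.2.symm)
  obtain ⟨w, hw⟩ : ∃ w, w = e * e' * y * (e' * e) := ⟨_, rfl⟩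
  rw [← hw]
  have hwD : w ∈ D := by
    have := h.inv (e * e') y hy
    rwa [hinv, ← hw] at this
  have hzc : ∀ z ∈ perp D y, Commute z w := by
    intro z hz
    have hze : ¬ Commute z e := by
      intro hzc
      rcases eq_or_ne z e with rfl | hze
      · exact hc hz.2.2
      · have h1 : z ∈ perp D e := ⟨hz.1, hze, hzc.symm⟩
        have h2 : perp D z = {e, e', e * e' * e} := by
          refine (Set.eq_of_subset_of_ncard_le ?_ ?_ (h.finite_perp hz.1)).symm
          · intro v hv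
            rcases hv with rfl | rfl | rfl
            exacts [h.symm he h1, h.symm he' (htw.symm ▸ h1), h.symm hmem (htw''.symm ▸ h1)]
          · rw [h.card z hz.1, Set.ncard_eq_three.mpr ⟨e, e', e * e' * e, hne.symm, hn1.symm, hn2.symm, rfl⟩]
        have h3 : y ∈ perp D z := h.symm hy hz
        rw [h2] at h3
        rcases h3 with h4 | h4 | h4
        exacts [hye h4, hye' h4, hye'' h4]
    have hx : y * e * z * e * y ∈ perp D e := h.col_mem hy hz he hc hze
    have hxe : Commute e' (y * e * z * e * y) := (htw.symm ▸ hx : _ ∈ perp D e').2.2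
    -- conjugate back
    have h5 := commute_conj (e * y) hxe
    have hw' : (e * y) * e' * (e * y)⁻¹ = w := by
      rw [hw, mul_inv_rev, inv_eq h.tt hy, inv_eq h.tt he]
      calc e * y * e' * (y * e) = e * (y * e' * y) * e := by simp only [mul_assoc]
        _ = e * (e' * y * e') * e := by rw [braid h.tt hy he' hc']
        _ = _ := by simp only [mul_assoc]
    have hz' : (e * y) * (y * e * z * e * y) * (e * y)⁻¹ = z := by
      rw [mul_inv_rev, inv_eq h.tt hy, inv_eq h.tt he]
      simp only [mul_assoc, h.sq' hy, h.sq' he, h.sq he, mul_one]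
    rw [hw', hz'] at h5
    exact h5.symm
  have hwy : w ∉ perp D y := by
    intro hm
    obtain ⟨z, hz, hzw⟩ : ∃ z ∈ perp D y, z ≠ w := by
      by_contra hcon
      push_neg at hcon
      have : (perp D y).ncard ≤ ({w} : Set G).ncard :=
        Set.ncard_le_ncard (fun z hz => hcon z hz) (Set.toFinite _)
      rw [h.card y hy, Set.ncard_singleton] at this
      omega
    exact h.nc y hy z hz w hm hzw (hzc z hz)
  refine (Set.eq_of_subset_of_ncard_le ?_ (by rw [h.card w hwD, h.card y hy]) (h.finite_perp hwD)).symm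
  exact fun z hz => ⟨hz.1, fun e' => hwy (e' ▸ hz), (hzc z hz).symm⟩

/-- `(1,1,1)`-element: the product of a twin product and its `q`-conjugate. -/
theorem kay {e e' q : G} (he : e ∈ D) (he' : e' ∈ D) (hne : e' ≠ e) (htw : perp D e' = perp D e)
    (hq : q ∈ D) (h1 : ¬ Commute q e) (h3 : ¬ Commute q (e * e' * e)) :
    Commute (e * e' * (q * (e * e') * q)) q ∧ Commute (e * e' * (q * (e * e') * q)) e ∧
      (e * e' * (q * (e * e') * q)) ^ 3 = 1 := by
  obtain ⟨hnc, hmem, -, -, -⟩ := h.twin_facts he he' hne htw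
  obtain ⟨r, hr⟩ : ∃ r, r = e * e' := ⟨_, rfl⟩
  obtain ⟨g, hg⟩ : ∃ g, g = e * e' * e := ⟨_, rfl⟩
  rw [← hg] at h3 hmem
  have hri : r⁻¹ = e' * e := by rw [hr, mul_inv_rev, inv_eq h.tt he, inv_eq h.tt he']
  have hg' : e' * e * e' = g := by rw [hg]; exact (braid h.tt he he' hnc).symm
  have b1 := braid h.tt hq he h1
  have b3 := braid h.tt hq hmem h3
  -- `r` moves `q e q` to `q g q`, and `q e' q` to `q e q`
  have hL : r * (q * e * q) * r⁻¹ = q * g * q := by
    rw [b1, hri, hr, b3]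
    calc e * e' * (e * q * e) * (e' * e) = (e * e' * e) * q * (e * e' * e) := by simp only [mul_assoc]
      _ = g * q * g := by rw [← hg]
  have hM : r * (q * e' * q) * r⁻¹ = q * e * q := by
    rcases eq_or_ne q e' with hqe | h2'
    · rw [hri, hr, hqe]
      calc e * e' * (e' * e' * e') * (e' * e) = e * e' * e := by
            simp only [mul_assoc, h.sq' he']
        _ = _ := braid h.tt he he' hnc
    by_cases h2 : Commute q e'
    · exfalso
      exact h1 ((htw ▸ (⟨hq, h2', h2.symm⟩ : q ∈ perp D e') : q ∈ perp D e).2.2.symm)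
    · rw [braid h.tt hq he' h2, hri, hr, b1]
      simp only [mul_assoc, h.sq' he']
  obtain ⟨s, hs⟩ : ∃ s, s = q * r * q := ⟨_, rfl⟩
  have hsi : s⁻¹ = q * r⁻¹ * q := by
    rw [hs, mul_inv_rev, mul_inv_rev, inv_eq h.tt hq, mul_assoc]
  have hse : s * e * s⁻¹ = g := by
    rw [hsi, hs]
    calc q * r * q * e * (q * r⁻¹ * q) = q * (r * (q * e * q) * r⁻¹) * q := by simp only [mul_assoc]
      _ = g := by rw [hL]; simp only [mul_assoc, h.sq' hq, h.sq hq, mul_one]
  have hse' : s * e' * s⁻¹ = e := by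
    rw [hsi, hs]
    calc q * r * q * e' * (q * r⁻¹ * q) = q * (r * (q * e' * q) * r⁻¹) * q := by simp only [mul_assoc]
      _ = e := by rw [hM]; simp only [mul_assoc, h.sq' hq, h.sq hq, mul_one]
  have hsr : Commute s r := by
    apply conjMem_iff.mp
    calc s * r * s⁻¹ = (s * e * s⁻¹) * (s * e' * s⁻¹) := by rw [hr]; group
      _ = r := by
        rw [hse, hse', hg, hr, mul_assoc _ e e, h.sq he, mul_one]
  have hr3 : r ^ 3 = 1 := by rw [hr]; exact cube_eq h.tt he he' hnc
  have hs3 : s ^ 3 = 1 := by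
    have e2 : s = q * r * q⁻¹ := by rw [hs, inv_eq h.tt hq]
    rw [e2, conj_pow, hr3, mul_one, mul_inv_cancel]
  rw [← hr, ← hs]
  refine ⟨?_, ?_, ?_⟩
  · show r * s * q = q * (r * s)
    calc r * s * q = s * r * q := by rw [hsr.eq]
      _ = q * (r * (q * r * q)) := by rw [hs]; simp only [mul_assoc]
      _ = _ := by rw [← hs]
  · apply conjMem_iff.mp
    calc r * s * e * (r * s)⁻¹ = r * (s * e * s⁻¹) * r⁻¹ := by group
      _ = e := by
        rw [hse, hri, hr, ← hg']
        simp only [mul_assoc, h.sq' he', h.sq' he, h.sq he, mul_one]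
  · rw [hsr.symm.mul_pow, hr3, hs3, one_mul]

theorem no_outside_K33 {d d' a b e e' : G} (hd : d ∈ D) (ha : a ∈ perp D d) (hb : b ∈ perp D d)
    (hab : a ≠ b) (hab' : perp D b = perp D a) (hd' : d' ∈ D) (hdd' : perp D d' = perp D d)
    (he : e ∈ D) (hde : ¬ Commute d e) (hae : ¬ Commute a e)
    (he' : e' ∈ D) (hne : e' ≠ e) (htw : perp D e' = perp D e)
    (hnc'' : ¬ Commute d (e * e' * e))
    (hcore : Nat.card (Cfsg.pCore 3 ↥(Subgroup.centralizer ({d} : Set G))) = 3) : False := by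
  obtain ⟨hnce, hmem, htw'', hn1, hn2⟩ := h.twin_facts he he' hne htw
  obtain ⟨hncab, -, -, -, -⟩ := h.twin_facts ha.1 hb.1 hab.symm hab'
  obtain ⟨kd, ke, k3⟩ := h.kay he he' hne htw hd hde hnc''
  obtain ⟨k, hk⟩ : ∃ k, k = e * e' * (d * (e * e') * d) := ⟨_, rfl⟩
  rw [← hk] at kd ke k3
  have twinsOf : ∀ y ∈ D, ∃ u ∈ D, u ≠ y ∧ perp D u = perp D y := by
    intro y hy
    by_cases hyd : Commute y d
    · rcases eq_or_ne y d with heq | hyd'
      · rw [heq]
        obtain ⟨u, hu, hu'⟩ := Set.exists_ne_of_one_lt_ncard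
            (show 1 < (perp D a).ncard by rw [h.card a ha.1]; norm_num) d
        exact ⟨u, hu.1, hu', h.twins_of_square hd ha hb hab hu
          ((hab'.symm ▸ hu : u ∈ perp D b).2.2.symm)⟩
      · have hyp : y ∈ perp D d := ⟨hy, hyd', hyd.symm⟩
        obtain ⟨u, hu, hu'⟩ := Set.exists_ne_of_one_lt_ncard
          (show 1 < (perp D d).ncard by rw [h.card d hd]; norm_num) y
        have hall : ∀ v ∈ perp D d, perp D v = perp D a := by
          rcases eq_or_ne d' d with rfl | hne'
          · intro v hv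
            obtain ⟨u', hu', hu''⟩ := Set.exists_ne_of_one_lt_ncard
              (show 1 < (perp D a).ncard by rw [h.card a ha.1]; norm_num) d'
            have h6 := h.twins_of_square hd ha hb hab hu' ((hab'.symm ▸ hu' : u' ∈ perp D b).2.2.symm)
            exact h.twin_of_perp hd ha hu'.1 hu'' h6 v hv
          · exact h.twin_of_perp hd ha hd' hne' hdd'
        exact ⟨u, hu.1, hu', by rw [hall u hu, hall y hyp]⟩
    · -- `y` is conjugate to `d`
      obtain ⟨u0, hu0, hu0', hu0''⟩ : ∃ u ∈ D, u ≠ d ∧ perp D u = perp D d := by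
        obtain ⟨u, hu, hu'⟩ := Set.exists_ne_of_one_lt_ncard
          (show 1 < (perp D a).ncard by rw [h.card a ha.1]; norm_num) d
        exact ⟨u, hu.1, hu', h.twins_of_square hd ha hb hab hu ((hab'.symm ▸ hu : u ∈ perp D b).2.2.symm)⟩
      have hyd' : ¬ Commute d y := fun hh => hyd hh.symm
      have hg : (d * y) * d * (d * y)⁻¹ = y := by
        rw [mul_inv_rev, inv_eq h.tt hd, inv_eq h.tt hy]
        calc d * y * d * (y * d) = (d * y * d) * y * d := by simp only [mul_assoc]
          _ = y := by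
            rw [braid h.tt hd hy hyd']
            simp only [mul_assoc, h.sq' hy, h.sq hd, mul_one]
      refine ⟨(d * y) * u0 * (d * y)⁻¹, h.inv _ _ hu0, fun heq => hu0' ?_, ?_⟩
      · conv_rhs at heq => rw [← hg]
        exact mul_left_cancel (mul_right_cancel heq)
      · rw [h.perp_conj_eq hd hu0 hu0'', hg]
  -- the kernel on the twin classes
  let C := Subgroup.centralizer ({d} : Set G)
  let good : Set C := {g | (g : G) ∈ closure D ∧ (g : G) ^ 3 = 1 ∧
    ∀ y ∈ D, perp D ((g : G) * y * (g : G)⁻¹) = perp D y}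
  have hgc : ∀ g ∈ good, ∀ g' ∈ good, ∀ y ∈ D, Commute (((g : G) * g' * (g : G)⁻¹ * (g' : G)⁻¹)) y := by
    intro g hg g' hg' y hy
    obtain ⟨u, hu, huy, hperp⟩ := twinsOf y hy
    obtain ⟨hnc1, hmem1, htw1, hn11, hn12⟩ := h.twin_facts hy hu huy hperp
    obtain ⟨z, hz⟩ : (perp D y).Nonempty := Set.nonempty_of_ncard_ne_zero (by rw [h.card y hy]; norm_num)
    let W : Set G := {v | v ∈ D ∧ perp D v = perp D y}
    have hsub : W ⊆ perp D z := fun v hv => h.symm hv.1 (hv.2.symm ▸ hz)
    have hWc : W.ncard = 3 := by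
      refine le_antisymm ((Set.ncard_le_ncard hsub (h.finite_perp hz.1)).trans (h.card z hz.1).le) ?_
      rw [← Set.ncard_eq_three.mpr ⟨y, u, y * u * y, huy.symm, hn11.symm, hn12.symm, rfl⟩]
      refine Set.ncard_le_ncard ?_ (Set.Finite.subset (h.finite_perp hz.1) hsub)
      intro v hv
      rcases hv with rfl | rfl | rfl
      exacts [⟨hy, rfl⟩, ⟨hu, hperp⟩, ⟨hmem1, htw1⟩]
    have hW : ∀ x : C, x ∈ good → ∀ v ∈ W, (x : G) * v * (x : G)⁻¹ ∈ W := fun x hx v hv =>
      ⟨h.inv _ _ hv.1, (hx.2.2 v hv.1).trans hv.2⟩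
    have cu : ∀ x : C, x ∈ good → ∀ v : G,
        (x : G) * ((x : G) * ((x : G) * v * (x : G)⁻¹) * (x : G)⁻¹) * (x : G)⁻¹ = v := by
      intro x hx v
      calc _ = (x : G) ^ 3 * v * ((x : G) ^ 3)⁻¹ := by
            simp only [pow_succ, pow_zero, one_mul, mul_inv_rev, mul_assoc]
        _ = v := by rw [hx.2.1]; simp
    let perm : (x : C) → x ∈ good → Equiv.Perm W := fun x hx =>
      { toFun := fun v => ⟨(x : G) * v * (x : G)⁻¹, hW x hx v v.2⟩
        invFun := fun v => ⟨(x : G) * ((x : G) * v * (x : G)⁻¹) * (x : G)⁻¹,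
          hW x hx _ (hW x hx v v.2)⟩
        left_inv := fun v => Subtype.ext (cu x hx v)
        right_inv := fun v => Subtype.ext (cu x hx v) }
    haveI : Finite W := (Set.Finite.subset (h.finite_perp hz.1) hsub).to_subtype
    let f : Equiv.Perm W ≃* Equiv.Perm (Fin 3) :=
      (Finite.equivFinOfCardEq (by rw [Nat.card_coe_set_eq]; exact hWc)).permCongrHom
    have hp3 : ∀ (x : C) (hx : x ∈ good), (perm x hx) ^ 3 = 1 := by
      intro x hx
      refine Equiv.ext fun v => Subtype.ext ?_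
      simp only [pow_succ, pow_zero, one_mul, Equiv.Perm.mul_apply]
      exact cu x hx v
    have hcomm : perm g hg * perm g' hg' = perm g' hg' * perm g hg := by
      apply f.injective
      rw [map_mul, map_mul]
      exact three_perms_commute _ _ (by rw [← map_pow, hp3 g hg, map_one]) (by rw [← map_pow, hp3 g' hg', map_one])
    have key : ∀ v : W, (g : G) * ((g' : G) * v * (g' : G)⁻¹) * (g : G)⁻¹
        = (g' : G) * ((g : G) * v * (g : G)⁻¹) * (g' : G)⁻¹ := fun v => by
      simpa [perm] using congrArg (fun p : Equiv.Perm W => ((p v : W) : G)) hcomm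
    apply conjMem_iff.mp
    have h7 : (g : G)⁻¹ * (g' : G)⁻¹ * y * (g' : G) * g ∈ W := by
      have e1 : ∀ x : C, x ∈ good → ∀ v ∈ W, (x : G)⁻¹ * v * (x : G) ∈ W := by
        intro x hx v hv
        have h8 := hW x hx _ (hW x hx v hv)
        have e2 : (x : G) * ((x : G) * v * (x : G)⁻¹) * (x : G)⁻¹ = (x : G)⁻¹ * v * x := by
          calc _ = (x : G)⁻¹ * ((x : G) ^ 3 * v * ((x : G) ^ 3)⁻¹) * x := by
                simp only [pow_succ, pow_zero, one_mul, mul_inv_rev, mul_assoc, inv_mul_cancel_left,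
                  inv_mul_cancel, mul_one]
            _ = _ := by rw [hx.2.1]; simp [mul_assoc]
        rwa [e2] at h8
      have := e1 g hg _ (e1 g' hg' y ⟨hy, rfl⟩)
      simpa [mul_assoc] using this
    have h9 := key ⟨_, h7⟩
    calc (g : G) * g' * (g : G)⁻¹ * (g' : G)⁻¹ * y * ((g : G) * g' * (g : G)⁻¹ * (g' : G)⁻¹)⁻¹
        = (g : G) * ((g' : G) * ((g : G)⁻¹ * (g' : G)⁻¹ * y * g' * g) * (g' : G)⁻¹) * (g : G)⁻¹ := by
          group
      _ = (g' : G) * ((g : G) * ((g : G)⁻¹ * (g' : G)⁻¹ * y * g' * g) * (g : G)⁻¹) * (g' : G)⁻¹ := h9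
      _ = y := by group
  let S : Subgroup C :=
    { carrier := good
      one_mem' := ⟨one_mem _, one_pow 3, fun y hy => by simp⟩
      inv_mem' := fun {g} hg => by
        refine ⟨inv_mem hg.1, by simp [inv_pow, hg.2.1], fun y hy => ?_⟩
        have h1 := hg.2.2 _ (h.inv (g : G)⁻¹ y hy)
        rw [show (g : G) * ((g : G)⁻¹ * y * (g : G)⁻¹⁻¹) * (g : G)⁻¹ = y by group] at h1
        simpa using h1.symm
      mul_mem' := fun {g g'} hg hg' => by
        refine ⟨mul_mem hg.1 hg'.1, ?_, fun y hy => ?_⟩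
        · -- class two
          obtain ⟨c, hc⟩ : ∃ c, c = (g' : G) * g * (g' : G)⁻¹ * (g : G)⁻¹ := ⟨_, rfl⟩
          have hcD : ∀ x ∈ closure D, Commute c x := by
            intro x hx
            induction hx using closure_induction with
            | mem x hx => rw [hc]; exact hgc g' hg' g hg x hx
            | one => exact Commute.one_right c
            | mul x y _ _ i j => exact i.mul_right j
            | inv x _ i => exact i.inv_right
          have c1 := hcD _ hg.1
          have c2 := hcD _ hg'.1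
          have e1 : (g' : G) * g = c * g * g' := by rw [hc]; group
          have e3 : (g' : G) * (g : G) ^ 3 * (g' : G)⁻¹ = c ^ 3 * (g : G) ^ 3 := by
            rw [← conj_pow, ← c1.mul_pow]
            congr 1
            rw [e1]; group
          have c3 : c ^ 3 = 1 := by
            rw [hg.2.1, mul_one, mul_one, mul_inv_cancel] at e3
            exact e3.symm
          have m1 : ∀ x : G, (g' : G) * ((g : G) * x) = c * ((g : G) * ((g' : G) * x)) := fun x => by
            rw [← mul_assoc, e1]; simp only [mul_assoc]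
          have m2 : ∀ x : G, (g : G) * (c * x) = c * ((g : G) * x) := fun x => by
            rw [← mul_assoc, ← c1.eq, mul_assoc]
          have m3 : ∀ x : G, (g' : G) * (c * x) = c * ((g' : G) * x) := fun x => by
            rw [← mul_assoc, ← c2.eq, mul_assoc]
          calc ((g * g' : C) : G) ^ 3 = c ^ 3 * (g : G) ^ 3 * (g' : G) ^ 3 := by
                simp only [Subgroup.coe_mul, pow_succ, pow_zero, one_mul, mul_assoc, m1, m2, m3]
            _ = 1 := by rw [c3, hg.2.1, hg'.2.1, one_mul, one_mul]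
        · have e : ((g * g' : C) : G) * y * ((g * g' : C) : G)⁻¹
              = (g : G) * ((g' : G) * y * (g' : G)⁻¹) * (g : G)⁻¹ := by
            simp only [Subgroup.coe_mul]; group
          rw [e, hg.2.2 _ (h.inv _ y hy), hg'.2.2 y hy] }
  haveI hSn : S.Normal := ⟨fun g hg x => by
    show x * g * x⁻¹ ∈ good
    refine ⟨?_, ?_, fun y hy => ?_⟩
    · have hn : (closure D : Subgroup G).Normal := by
        refine ⟨fun n hn t => ?_⟩
        induction hn using closure_induction with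
        | mem v hv => exact subset_closure (h.inv t v hv)
        | one => rw [mul_one, mul_inv_cancel]; exact one_mem _
        | mul v w _ _ i j => rw [show t * (v * w) * t⁻¹ = t * v * t⁻¹ * (t * w * t⁻¹) by group]; exact mul_mem i j
        | inv v _ i => rw [show t * v⁻¹ * t⁻¹ = (t * v * t⁻¹)⁻¹ by group]; exact inv_mem i
      exact hn.conj_mem _ hg.1 (x : G)
    · show ((x : G) * g * (x : G)⁻¹) ^ 3 = 1
      rw [conj_pow, hg.2.1, mul_one, mul_inv_cancel]
    · have h1 := hg.2.2 _ (h.inv (x : G)⁻¹ y hy)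
      have h2 := h.perp_conj_eq (g := (x : G)) (h.inv (x : G)⁻¹ y hy) (h.inv _ _ (h.inv (x : G)⁻¹ y hy)) h1
      simp only [Subgroup.coe_mul, Subgroup.coe_inv]
      convert h2 using 2 <;> group⟩
  have hSp : IsPGroup 3 S := fun s => ⟨1, by
    rw [pow_one]; exact Subtype.ext (Subtype.ext s.2.2.1)⟩
  have hle : S ≤ Cfsg.pCore 3 C := le_sSup ⟨hSn, hSp⟩
  have hmemC : ∀ x : G, Commute x d → x ∈ C := fun x hx =>
    mem_centralizer_singleton_iff.mpr hx.eq
  have habC : a * b ∈ C := hmemC _ ((ha.2.2.mul_right hb.2.2).symm)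
  have hkC : k ∈ C := hmemC _ kd
  have habS : (⟨a * b, habC⟩ : C) ∈ S :=
    ⟨mul_mem (subset_closure ha.1) (subset_closure hb.1), cube_eq h.tt ha.1 hb.1 hncab,
      fun y hy => h.twin_prod_preserves ha.1 hb.1 hab.symm hab' hy⟩
  have hkS : (⟨k, hkC⟩ : C) ∈ S := by
    refine ⟨?_, k3, fun y hy => ?_⟩
    · show k ∈ closure D
      rw [hk]
      exact mul_mem (mul_mem (subset_closure he) (subset_closure he'))
        (mul_mem (mul_mem (subset_closure hd) (mul_mem (subset_closure he) (subset_closure he')))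
          (subset_closure hd))
    · show perp D (k * y * k⁻¹) = perp D y
      have hr : ∀ v ∈ D, perp D ((e * e') * v * (e * e')⁻¹) = perp D v :=
        fun v hv => h.twin_prod_preserves he he' hne htw hv
      have hv1 : d * y * d⁻¹ ∈ D := h.inv d y hy
      have hv2 : (e * e') * (d * y * d⁻¹) * (e * e')⁻¹ ∈ D := h.inv _ _ hv1
      have h2 := h.perp_conj_eq (g := d) hv1 hv2 (hr _ hv1)
      have h4 : d * (d * y * d⁻¹) * d⁻¹ = y := by
        rw [inv_eq h.tt hd]; simp only [mul_assoc, h.sq' hd, h.sq hd, mul_one]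
      rw [h4] at h2
      have h3 := hr _ (h.inv d _ hv2)
      rw [h2] at h3
      convert h3 using 2
      rw [hk, inv_eq h.tt hd, mul_inv_rev (e * e') (d * (e * e') * d), mul_inv_rev (d * (e * e')) d,
        mul_inv_rev d (e * e'), inv_eq h.tt hd]
      simp only [mul_assoc]
  -- the core is generated by `a * b`
  have hord : orderOf (⟨⟨a * b, habC⟩, hle habS⟩ : Cfsg.pCore 3 C) = 3 := by
    haveI : Fact (Nat.Prime 3) := ⟨Nat.prime_three⟩
    rw [Subgroup.orderOf_mk, Subgroup.orderOf_mk]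
    refine orderOf_eq_prime (cube_eq h.tt ha.1 hb.1 hncab) fun h1 => hab ?_
    exact (inv_eq h.tt ha.1).symm.trans (inv_eq_of_mul_eq_one_right h1)
  haveI : Fact (Nat.Prime 3) := ⟨Nat.prime_three⟩
  have hz := zpowers_eq_top_of_prime_card hcore
    (g := (⟨⟨a * b, habC⟩, hle habS⟩ : Cfsg.pCore 3 C)) (fun h1 => by
      rw [h1, orderOf_one] at hord; omega)
  have hkz : (⟨⟨k, hkC⟩, hle hkS⟩ : Cfsg.pCore 3 C) ∈ zpowers (⟨⟨a * b, habC⟩, hle habS⟩ : Cfsg.pCore 3 C) :=
    hz ▸ mem_top _
  haveI : Finite (Cfsg.pCore 3 C) := Nat.finite_of_card_ne_zero (by rw [hcore]; norm_num)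
  obtain ⟨n, hn, hn'⟩ : ∃ n : ℕ, n < 3 ∧ k = (a * b) ^ n := by
    obtain ⟨m, hm⟩ := mem_powers_iff_mem_zpowers.mpr hkz
    refine ⟨m % 3, Nat.mod_lt _ (by norm_num), ?_⟩
    have h1 : (a * b) ^ m = k := congrArg (fun x : Cfsg.pCore 3 C => ((x : C) : G)) hm
    rw [← h1, pow_eq_pow_mod _ (cube_eq h.tt ha.1 hb.1 hncab)]
  have hab3 := cube_eq h.tt ha.1 hb.1 hncab
  have haba : a * (a * b) * a = (a * b)⁻¹ := by
    rw [mul_inv_rev, inv_eq h.tt ha.1, inv_eq h.tt hb.1, h.sq' ha.1]
  have hcase : n ≠ 0 → False := by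
    intro hn0
    have hc : Commute e (a * b) := by
      interval_cases n
      · exact absurd rfl hn0
      · rw [pow_one] at hn'; exact (hn' ▸ ke).symm
      · have : a * b = k ^ 2 := by
          rw [hn', ← pow_mul]
          calc a * b = (a * b) ^ (3 + 1) := by rw [pow_add, hab3, one_mul, pow_one]
            _ = _ := rfl
        rw [this]; exact (ke.pow_left 2).symm
    have h1 := h.inverted_eq_one he ha.1 (fun hh => hae hh.symm) hab3 haba hc
    exact hab ((inv_eq h.tt ha.1).symm.trans (inv_eq_of_mul_eq_one_right h1))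
  by_cases hn0 : n = 0
  · -- `k = 1`
    rw [hn0, pow_zero] at hn'
    obtain ⟨r, hr⟩ : ∃ r, r = e * e' := ⟨_, rfl⟩
    have hr3 : r ^ 3 = 1 := by rw [hr]; exact cube_eq h.tt he he' hnce
    have her : e * r * e = r⁻¹ := by
      rw [hr, mul_inv_rev, inv_eq h.tt he, inv_eq h.tt he', h.sq' he]
    have hdr : d * r * d = r⁻¹ := by
      rw [hr]
      exact (inv_eq_of_mul_eq_one_right (hk.symm.trans hn')).symm
    have hed : (e * d) * r * (e * d)⁻¹ = r := by
      rw [mul_inv_rev, inv_eq h.tt hd, inv_eq h.tt he]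
      calc e * d * r * (d * e) = e * (d * r * d) * e := by simp only [mul_assoc]
        _ = (e * r * e)⁻¹ := by
          rw [hdr, mul_inv_rev, mul_inv_rev, inv_eq h.tt he, mul_assoc]
        _ = r := by rw [her, inv_inv]
    have hx := h.col_mem hd ha he hde hae
    have hxr : Commute r (d * e * a * e * d) := by
      rw [hr]
      exact hx.2.2.mul_left ((htw.symm ▸ hx : _ ∈ perp D e').2.2)
    have har : Commute a r := by
      have h1 := commute_conj (e * d) hxr
      rw [hed, mul_inv_rev, inv_eq h.tt hd, inv_eq h.tt he] at h1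
      have e2 : e * d * (d * e * a * e * d) * (d * e) = a := by
        simp only [mul_assoc, h.sq' hd, h.sq' he, h.sq he, mul_one]
      rw [e2] at h1
      exact h1.symm
    have := h.inverted_eq_one ha.1 he hae hr3 her har
    rw [hr] at this
    exact hne ((inv_eq h.tt he).symm.trans (inv_eq_of_mul_eq_one_right this)).symm
  · exact hcase hn0

end Hyp

end CfsgLib.LocalS3
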