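import Cfsg.Agent.Lib.ThreeTransp.LocalS3Case

/-! The conclusion: `Sym(5)` or `Sym(3) × Sym(3)`. -/

set_option autoImplicit false

namespace CfsgLib.LocalS3

open Cfsg Subgroup CfsgLib.ThreeTransp

variable {G : Type*} [Group G] {D : Set G}

def IsT (t : Equiv.Perm (Fin 5)) : Prop := ∃ i j : Fin 5, i ≠ j ∧ t = Equiv.swap i j

/-- The vertices of the Petersen graph. -/
def V : Fin 10 → Equiv.Perm (Fin 5) :=
  ![Equiv.swap 0 1, Equiv.swap 2 3, Equiv.swap 0 4, Equiv.swap 1 2, Equiv.swap 3 4,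
    Equiv.swap 2 4, Equiv.swap 1 4, Equiv.swap 1 3, Equiv.swap 0 3, Equiv.swap 0 2]

theorem V_isT : ∀ v : Fin 10, IsT (V v) := by unfold IsT; decide +kernel

theorem V_inj : ∀ v w : Fin 10, V v = V w → v = w := by decide +kernel

theorem swap_conj : ∀ i j : Fin 5, i ≠ j →
    ∃ g : Equiv.Perm (Fin 5), g * Equiv.swap 0 1 * g⁻¹ = Equiv.swap i j := by decide +kernel

theorem three_disjoint : ∀ i j : Fin 5, i ≠ j → ∃ k l m : Fin 5, k ≠ l ∧ k ≠ m ∧ l ≠ m ∧
    k ∉ ({i, j} : Finset (Fin 5)) ∧ l ∉ ({i, j} : Finset (Fin 5)) ∧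
      m ∉ ({i, j} : Finset (Fin 5)) := by decide +kernel

theorem swap_comm_of_disjoint : ∀ i j k l : Fin 5, i ≠ j → k ≠ l → k ∉ ({i, j} : Finset (Fin 5)) →
    l ∉ ({i, j} : Finset (Fin 5)) →
    Equiv.swap i j * Equiv.swap k l = Equiv.swap k l * Equiv.swap i j ∧
      Equiv.swap k l ≠ Equiv.swap i j := by decide +kernel

theorem swaps_distinct : ∀ k l m : Fin 5, k ≠ l → k ≠ m → l ≠ m →
    Equiv.swap k l ≠ Equiv.swap k m ∧ Equiv.swap k l ≠ Equiv.swap l m ∧
      Equiv.swap k m ≠ Equiv.swap l m := by decide +kernel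

theorem perm3_center : ∀ x : Equiv.Perm (Fin 3),
    x * Equiv.swap 0 1 = Equiv.swap 0 1 * x → x * Equiv.swap 1 2 = Equiv.swap 1 2 * x → x = 1 := by
  decide +kernel

theorem closure_commute {A B : Set G} (hAB : ∀ a ∈ A, ∀ b ∈ B, Commute a b) {x y : G}
    (hx : x ∈ closure A) (hy : y ∈ closure B) : Commute x y := by
  have h1 : closure A ≤ centralizer (closure B : Set G) := by
    rw [closure_le]
    intro a ha
    rw [SetLike.mem_coe, mem_centralizer_iff]
    intro z hz
    have h2 : closure B ≤ centralizer ({a} : Set G) := by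
      rw [closure_le]
      exact fun b hb => mem_centralizer_singleton_iff.mpr (hAB a ha b hb).symm.eq
    exact mem_centralizer_singleton_iff.mp (h2 hz)
  exact (mem_centralizer_iff.mp (h1 hx) y hy).symm

theorem result [Finite G] (hD : IsThreeTranspositionSet D)
    (hconj : ∀ g : G, ∀ d ∈ D, g * d * g⁻¹ ∈ D) (hne : D.Nonempty)
    (hloc : ∀ d ∈ D, Nonempty (↥(closure (perp D d)) ≃* Equiv.Perm (Fin 3)))
    (hcore : ∀ d ∈ D, Nat.card (Cfsg.pCore 3 ↥(Subgroup.centralizer ({d} : Set G))) = 3) :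
    Nonempty (↥(closure D) ≃* Equiv.Perm (Fin 5)) ∨
      Nonempty (↥(closure D) ≃* Equiv.Perm (Fin 3) × Equiv.Perm (Fin 3)) := by
  have h : Hyp D := hyp_of_iso hD hconj hloc
  by_cases hA : ∃ d ∈ D, ∃ a ∈ perp D d, ∃ b ∈ perp D d, a ≠ b ∧ ∃ a1 ∈ perp D a, a1 ≠ d ∧ Commute a1 b
  · obtain ⟨d, hd, a, ha, b, hb, hab, a1, ha1, ha1d, hc⟩ := hA
    have htd := h.twins_of_square hd ha hb hab ha1 hc
    have hQ : ∀ y ∈ perp D d, perp D y = perp D a := h.twin_of_perp hd ha ha1.1 ha1d htd
    have hP : ∀ y ∈ perp D a, perp D y = perp D d :=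
      h.twin_of_perp ha.1 (h.symm hd ha) hb.1 hab.symm (hQ b hb)
    have hDelta : D = perp D a ∪ perp D d := by
      refine Set.Subset.antisymm (fun e he => ?_) (Set.union_subset (fun x hx => hx.1) fun x hx => hx.1)
      by_contra hcon
      rw [Set.mem_union, not_or] at hcon
      have hed : ¬ Commute d e := fun hh => by
        rcases eq_or_ne e d with rfl | hne'
        · exact hcon.1 (h.symm hd ha)
        · exact hcon.2 ⟨he, hne', hh⟩
      have hea : ¬ Commute a e := fun hh => by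
        rcases eq_or_ne e a with rfl | hne'
        · exact hcon.2 ha
        · exact hcon.1 ⟨he, hne', hh⟩
      obtain ⟨g, hg⟩ : ∃ g, g = d * e := ⟨_, rfl⟩
      have hgd : g * d * g⁻¹ = e := by
        rw [hg, mul_inv_rev, inv_eq hD hd, inv_eq hD he]
        calc d * e * d * (e * d) = (d * e * d) * e * d := by simp only [mul_assoc]
          _ = e := by
            rw [braid hD hd he hed]
            simp only [mul_assoc, h.sq' he, h.sq hd, mul_one]
      have he'D : g * a1 * g⁻¹ ∈ D := hconj g a1 ha1.1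
      have hne' : g * a1 * g⁻¹ ≠ e := fun heq => ha1d (by
        conv_rhs at heq => rw [← hgd]
        exact mul_left_cancel (mul_right_cancel heq))
      have htw : perp D (g * a1 * g⁻¹) = perp D e := by rw [h.perp_conj_eq hd ha1.1 htd, hgd]
      obtain ⟨-, hmem, htw'', -, -⟩ := h.twin_facts he he'D hne' htw
      refine h.no_outside_K33 hd ha hb hab (hQ b hb) ha1.1 htd he hed hea he'D hne' htw ?_ (hcore d hd)
      intro hh
      rcases eq_or_ne (e * (g * a1 * g⁻¹) * e) d with heq | hne''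
      · rw [heq] at htw''
        exact hcon.1 (h.symm he (htw'' ▸ ha : a ∈ perp D e))
      · have h1 := hQ _ (⟨hmem, hne'', hh⟩ : e * (g * a1 * g⁻¹) * e ∈ perp D d)
        rw [htw''] at h1
        exact hcon.2 (h.symm he (h1.symm ▸ h.symm hd ha : d ∈ perp D e))
    obtain ⟨ea⟩ := hloc a ha.1
    obtain ⟨ed⟩ := hloc d hd
    have hcomm : ∀ x ∈ perp D a, ∀ y ∈ perp D d, Commute x y := fun x hx y hy => by
      have h1 : y ∈ perp D x := (hP x hx).symm ▸ hy
      exact h1.2.2
    let fA : Equiv.Perm (Fin 3) →* G := (closure (perp D a)).subtype.comp ea.symm.toMonoidHom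
    let fD : Equiv.Perm (Fin 3) →* G := (closure (perp D d)).subtype.comp ed.symm.toMonoidHom
    have hfc : ∀ x y, Commute (fA x) (fD y) := fun x y =>
      closure_commute hcomm (ea.symm x).2 (ed.symm y).2
    let Φ := fA.noncommCoprod fD hfc
    have hinj : Function.Injective Φ := by
      rw [injective_iff_map_eq_one]
      rintro ⟨x, y⟩ hxy
      have hxy' : fA x * fD y = 1 := hxy
      have hxeq : fA x = (fD y)⁻¹ := eq_inv_of_mul_eq_one_left hxy'
      have hcen : ∀ z, fA x * fA z = fA z * fA x := fun z => by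
        rw [hxeq]; exact ((hfc z y).inv_right).symm.eq
      have hAi : Function.Injective fA := Subtype.val_injective.comp ea.symm.injective
      have hx1 : x = 1 := perm3_center x (hAi (by rw [map_mul, map_mul]; exact hcen _))
        (hAi (by rw [map_mul, map_mul]; exact hcen _))
      subst hx1
      rw [map_one, one_mul] at hxy'
      have hy1 : y = 1 := by
        apply ed.symm.injective
        rw [map_one]
        exact Subtype.ext hxy'
      subst hy1
      rfl
    have hrange : Φ.range = closure D := by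
      show (fA.noncommCoprod fD hfc).range = _
      rw [MonoidHom.noncommCoprod_range]
      have r1 : fA.range = closure (perp D a) := by
        rw [MonoidHom.range_comp, MonoidHom.range_eq_top.mpr ea.symm.surjective,
          ← MonoidHom.range_eq_map, Subgroup.range_subtype]
      have r2 : fD.range = closure (perp D d) := by
        rw [MonoidHom.range_comp, MonoidHom.range_eq_top.mpr ed.symm.surjective,
          ← MonoidHom.range_eq_map, Subgroup.range_subtype]
      rw [r1, r2, ← Subgroup.closure_union, ← hDelta]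
    exact Or.inr ⟨((MonoidHom.ofInjective hinj).trans (MulEquiv.subgroupCongr hrange)).symm⟩
  · push_neg at hA
    obtain ⟨d, hd⟩ := hne
    obtain ⟨a, b, c, hab, -, -, hT⟩ := Set.ncard_eq_three.mp (h.card d hd)
    have ha : a ∈ perp D d := by rw [hT]; simp
    have hb : b ∈ perp D d := by rw [hT]; simp
    obtain ⟨a1, ha1, ha1d⟩ := Set.exists_ne_of_one_lt_ncard
      (show 1 < (perp D a).ncard by rw [h.card a ha.1]; norm_num) d
    have nb : ¬ Commute a1 b := hA d hd a ha b hb hab a1 ha1 ha1d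
    have nd : ¬ Commute d a1 := fun hh => h.nc a ha.1 a1 ha1 d (h.symm hd ha) ha1d hh.symm
    have R : Rel5 d a1 b a := ⟨rel4 hD hd ha1.1 hb.1 hb.2.2 nd nb, mul_self hD ha.1,
      by rw [← mul_assoc, ← mul_assoc]; exact braid hD hb.1 ha.1 (h.nc d hd b hb a ha hab.symm),
      ha.2.2.eq, ha1.2.2.symm.eq⟩
    obtain ⟨φ, hφ⟩ : ∃ φ, φ = hom5 R := ⟨_, rfl⟩
    have hinj : Function.Injective φ := hφ ▸ hom5_injective R hb.2.1.symm
    have h01 : φ (Equiv.swap 0 1) = d := by rw [hφ]; exact hom5_gen R 0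
    have hmemT : ∀ t, IsT t → φ t ∈ D := by
      rintro t ⟨i, j, hij, rfl⟩
      obtain ⟨g, hg⟩ := swap_conj i j hij
      rw [← hg, map_mul, map_mul, map_inv, h01]
      exact hconj _ d hd
    have hclosed : ∀ t, IsT t → ∀ y ∈ perp D (φ t), ∃ t', IsT t' ∧ y = φ t' := by
      rintro t ⟨i, j, hij, rfl⟩ y hy
      obtain ⟨k, l, m, hkl, hkm, hlm, hk, hl, hm⟩ := three_disjoint i j hij
      have hin : ∀ k l : Fin 5, k ≠ l → k ∉ ({i, j} : Finset (Fin 5)) → l ∉ ({i, j} : Finset (Fin 5)) →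
          φ (Equiv.swap k l) ∈ perp D (φ (Equiv.swap i j)) := fun k l hkl hk hl =>
        ⟨hmemT _ ⟨k, l, hkl, rfl⟩, fun e => (swap_comm_of_disjoint i j k l hij hkl hk hl).2 (hinj e),
          by
            show φ _ * φ _ = φ _ * φ _
            rw [← map_mul, ← map_mul, (swap_comm_of_disjoint i j k l hij hkl hk hl).1]⟩
      obtain ⟨n1, n2, n3⟩ := swaps_distinct k l m hkl hkm hlm
      have heq : ({φ (Equiv.swap k l), φ (Equiv.swap k m), φ (Equiv.swap l m)} : Set G)
          = perp D (φ (Equiv.swap i j)) := by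
        refine Set.eq_of_subset_of_ncard_le ?_ ?_ (Set.toFinite _)
        · intro z hz
          rcases hz with rfl | rfl | rfl
          exacts [hin k l hkl hk hl, hin k m hkm hk hm, hin l m hlm hl hm]
        · rw [h.card _ (hmemT _ ⟨i, j, hij, rfl⟩), Set.ncard_eq_three.mpr
            ⟨_, _, _, hinj.ne n1, hinj.ne n2, hinj.ne n3, rfl⟩]
      rw [← heq] at hy
      rcases hy with rfl | rfl | rfl
      exacts [⟨_, ⟨k, l, hkl, rfl⟩, rfl⟩, ⟨_, ⟨k, m, hkm, rfl⟩, rfl⟩, ⟨_, ⟨l, m, hlm, rfl⟩, rfl⟩]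
    have hDelta : ∀ e ∈ D, ∃ t, IsT t ∧ e = φ t := by
      intro e he
      by_contra hcon
      push_neg at hcon
      have hnc : ∀ t, IsT t → ¬ Commute (φ t) e := fun t ht hh => by
        obtain ⟨t', ht', he'⟩ := hclosed t ht e ⟨he, hcon t ht, hh⟩
        exact hcon t' ht' he'
      let ι : perp D e ≃ Fin 3 := Finite.equivFinOfCardEq (by rw [Nat.card_coe_set_eq]; exact h.card e he)
      classical
      let col : Fin 10 → Fin 10 → G := fun v w => φ (V v) * e * φ (V w) * e * φ (V v)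
      let f : Fin 10 → Fin 10 → Fin 3 := fun v w =>
        if hh : col v w ∈ perp D e then ι ⟨col v w, hh⟩ else 0
      have hmem : ∀ v w, v ≠ w → V v * V w = V w * V v → col v w ∈ perp D e ∧ col v w = col w v := by
        intro v w hvw hcm
        have hp : φ (V w) ∈ perp D (φ (V v)) := ⟨hmemT _ (V_isT w),
          fun e' => hvw (V_inj _ _ (hinj e').symm),
          by show φ _ * φ _ = φ _ * φ _; rw [← map_mul, ← map_mul, hcm]⟩
        exact ⟨h.col_mem (hmemT _ (V_isT v)) hp he (hnc _ (V_isT v)) (hnc _ (V_isT w)),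
          h.col_symm (hmemT _ (V_isT v)) hp he (hnc _ (V_isT v)) (hnc _ (V_isT w))⟩
      have hprop : ∀ v w u : Fin 10, v ≠ w → v ≠ u → w ≠ u → V v * V w = V w * V v →
          V v * V u = V u * V v →
          f v w ≠ f v u ∧ f w v ≠ f v u ∧ f v w ≠ f u v ∧ f w v ≠ f u v := by
        intro v w u hvw hvu hwu c1 c2
        obtain ⟨m1, e1⟩ := hmem v w hvw c1
        obtain ⟨m2, e2⟩ := hmem v u hvu c2
        have hd1 : col v w ≠ col v u := fun ee => hwu (V_inj _ _ (hinj (h.col_inj ee)))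
        have k1 : f v w = ι ⟨_, m1⟩ := dif_pos m1
        have k2 : f v u = ι ⟨_, m2⟩ := dif_pos m2
        have k3 : f w v = ι ⟨_, m1⟩ := by
          show dite _ _ _ = _
          rw [dif_pos (show col w v ∈ perp D e from e1 ▸ m1)]
          exact congrArg ι (Subtype.ext e1.symm)
        have k4 : f u v = ι ⟨_, m2⟩ := by
          show dite _ _ _ = _
          rw [dif_pos (show col u v ∈ perp D e from e2 ▸ m2)]
          exact congrArg ι (Subtype.ext e2.symm)
        have : ι ⟨_, m1⟩ ≠ ι ⟨_, m2⟩ := fun ee => hd1 (Subtype.ext_iff.mp (ι.injective ee))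
        rw [k1, k2, k3, k4]
        exact ⟨this, this, this, this⟩
      have P := fun v w u (hh : (v ≠ w ∧ v ≠ u ∧ w ≠ u) ∧ V v * V w = V w * V v ∧ V v * V u = V u * V v) =>
        hprop v w u hh.1.1 hh.1.2.1 hh.1.2.2 hh.2.1 hh.2.2
      exact no_colouring (f 0 1) (f 1 2) (P 1 2 0 (by decide +kernel)).2.2.1
        (f 2 3) (P 2 3 1 (by decide +kernel)).2.2.1
        (f 3 4) (P 3 4 2 (by decide +kernel)).2.2.1
        (f 4 0) (P 4 0 3 (by decide +kernel)).2.2.1 (P 0 4 1 (by decide +kernel)).2.1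
        (f 0 5) (P 0 5 4 (by decide +kernel)).2.2.1 (P 0 5 1 (by decide +kernel)).1
        (f 1 6) (P 1 6 0 (by decide +kernel)).2.2.1 (P 1 6 2 (by decide +kernel)).1
        (f 2 7) (P 2 7 1 (by decide +kernel)).2.2.1 (P 2 7 3 (by decide +kernel)).1
        (f 3 8) (P 3 8 2 (by decide +kernel)).2.2.1 (P 3 8 4 (by decide +kernel)).1
        (f 4 9) (P 4 9 3 (by decide +kernel)).2.2.1 (P 4 9 0 (by decide +kernel)).1
        (f 5 7) (P 5 7 0 (by decide +kernel)).2.2.1 (P 7 5 2 (by decide +kernel)).2.2.2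
        (f 5 8) (P 5 8 0 (by decide +kernel)).2.2.1 (P 8 5 3 (by decide +kernel)).2.2.2
          (P 5 8 7 (by decide +kernel)).1
        (f 6 8) (P 6 8 1 (by decide +kernel)).2.2.1 (P 8 6 3 (by decide +kernel)).2.2.2
          (P 8 6 5 (by decide +kernel)).2.2.2
        (f 6 9) (P 6 9 1 (by decide +kernel)).2.2.1 (P 9 6 4 (by decide +kernel)).2.2.2
          (P 6 9 8 (by decide +kernel)).1
        (f 7 9) (P 7 9 2 (by decide +kernel)).2.2.1 (P 9 7 4 (by decide +kernel)).2.2.2
          (P 7 9 5 (by decide +kernel)).2.2.1 (P 9 7 6 (by decide +kernel)).2.2.2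
    have hrange : φ.range = closure D := by
      apply le_antisymm
      · rw [MonoidHom.range_eq_map, ← Equiv.Perm.closure_isSwap, MonoidHom.map_closure, closure_le]
        rintro x ⟨t, ⟨i, j, hij, rfl⟩, rfl⟩
        exact subset_closure (hmemT _ ⟨i, j, hij, rfl⟩)
      · rw [closure_le]
        intro e he
        obtain ⟨t, -, rfl⟩ := hDelta e he
        exact ⟨t, rfl⟩
    exact Or.inl ⟨((MonoidHom.ofInjective hinj).trans (MulEquiv.subgroupCongr hrange)).symm⟩

end CfsgLib.LocalS3
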