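import Cfsg.Agent.Lib.ThreeTransp.Derived

/-! Commuting sets of transpositions of maximum size. -/

set_option autoImplicit false

universe u

namespace CfsgLib.ThreeTransp

open Cfsg Subgroup

variable {G : Type u} [Group G] [Finite G] {D : Set G} {E : Set G}

theorem eq_of_two_group (hD : IsThreeTranspositionSet D) (hE : E ⊆ D)
    (hmax : ∀ E' : Set G, E' ⊆ D → (∀ a ∈ E', ∀ b ∈ E', Commute a b) → E'.ncard ≤ E.ncard)
    {T : Subgroup G} (hT : IsPGroup 2 T) (hET : E ⊆ T) : {d : G | d ∈ D ∧ d ∈ T} = E :=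
  (Set.eq_of_subset_of_ncard_le (t := {d : G | d ∈ D ∧ d ∈ T}) (fun x hx => ⟨hE hx, hET hx⟩)
    (hmax _ (fun x hx => hx.1) fun a ha b hb => commute_of_mem_two_group hD hT ha.1 hb.1 ha.2 hb.2)
    (Set.toFinite _)).symm

theorem mem_set_normalizer {g : G} (h : (fun x => g * x * g⁻¹) '' E = E) : g ∈ normalizer E :=
  mem_normalizer_iff_conj_image_eq.mpr h

theorem sylow_normalizes (hG : IsThreeTranspositionGroup D) (hE : E ⊆ D) (hc : ∀ a ∈ E, ∀ b ∈ E, Commute a b)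
    (hmax : ∀ E' : Set G, E' ⊆ D → (∀ a ∈ E', ∀ b ∈ E', Commute a b) → E'.ncard ≤ E.ncard) :
    ∃ P : Sylow 2 G, (P : Subgroup G) ≤ normalizer E := by
  haveI : Fact (Nat.Prime 2) := ⟨Nat.prime_two⟩
  obtain ⟨T, hT⟩ := (isPGroup_closure_of_commute hG.1 hE hc).exists_le_sylow
  have hset := eq_of_two_group hG.1 hE hmax T.isPGroup' fun x hx => hT (subset_closure hx)
  refine ⟨T, fun g hg => mem_set_normalizer (Set.eq_of_subset_of_ncard_le ?_ ?_ (Set.toFinite _))⟩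
  · rintro _ ⟨x, hx, rfl⟩
    rw [← hset]
    exact ⟨hG.2.1 g x (hE hx), mul_mem (mul_mem hg (hT (subset_closure hx))) (inv_mem hg)⟩
  · rw [Set.ncard_image_of_injective _ fun x y h => by simpa using h]

theorem two_transitive (hG : IsThreeTranspositionGroup D) (hprim : IsPrimitiveUnderConj D) (hE : E ⊆ D)
    (hc : ∀ a ∈ E, ∀ b ∈ E, Commute a b)
    (hmax : ∀ E' : Set G, E' ⊆ D → (∀ a ∈ E', ∀ b ∈ E', Commute a b) → E'.ncard ≤ E.ncard)
    {a b c d : G} (ha : a ∈ E) (hb : b ∈ E) (hc' : c ∈ E) (hd : d ∈ E) (hab : a ≠ b) (hcd : c ≠ d) :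
    ∃ g ∈ normalizer E, g * a * g⁻¹ = c ∧ g * b * g⁻¹ = d := by
  haveI : Fact (Nat.Prime 2) := ⟨Nat.prime_two⟩
  have hw : ∃ u ∈ D, ∃ v ∈ D, u ≠ v ∧ Commute u v := ⟨a, hE ha, b, hE hb, hab, hc a ha b hb⟩
  obtain ⟨x, hx⟩ := hprim.1 a (hE ha) c (hE hc')
  obtain ⟨y, hy, hyd⟩ := perp_transitive hG hprim hw (hE hc') (y := x * b * x⁻¹) (z := d)
    ⟨hG.2.1 x b (hE hb), fun e => hab (by rw [← hx] at e; exact ((mul_left_cancel (mul_right_cancel e))).symm),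
      hx ▸ commute_conj x (hc a ha b hb)⟩ ⟨hE hd, hcd.symm, hc c hc' d hd⟩
  have hyc : Commute y c := commute_of_mem_cent
    ((closure_mono fun z hz => ⟨hz.1, hz.2.2⟩ : closure (perp D c) ≤ cent D c) hy)
  obtain ⟨g₀, hg₀⟩ : ∃ g₀, g₀ = y * x := ⟨_, rfl⟩
  have h0a : g₀ * a * g₀⁻¹ = c := by rw [hg₀, ← conj_conj, hx, hyc.eq, mul_inv_cancel_right]
  have h0b : g₀ * b * g₀⁻¹ = d := by rw [hg₀, ← conj_conj, hyd]
  let C : Subgroup G := centralizer ({c, d} : Set G)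
  let E₁ : Set G := (fun z => g₀ * z * g₀⁻¹) '' E
  have hE₁ : E₁ ⊆ D := by rintro _ ⟨z, hz, rfl⟩; exact hG.2.1 g₀ z (hE hz)
  have hc₁ : ∀ u ∈ E₁, ∀ v ∈ E₁, Commute u v := by
    rintro _ ⟨u, hu, rfl⟩ _ ⟨v, hv, rfl⟩; exact commute_conj g₀ (hc u hu v hv)
  have hinC : ∀ {F : Set G}, (∀ u ∈ F, ∀ v ∈ F, Commute u v) → c ∈ F → d ∈ F → closure F ≤ C := by
    intro F hF hcF hdF
    refine (closure_le _).mpr fun u hu => mem_centralizer_iff.mpr ?_
    rintro v (rfl | rfl)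
    · exact (hF _ hcF u hu).eq
    · exact (hF _ hdF u hu).eq
  have hl := hinC hc hc' hd
  have hl₁ := hinC hc₁ ⟨a, ha, h0a⟩ ⟨b, hb, h0b⟩
  obtain ⟨S, hS⟩ := ((isPGroup_closure_of_commute hG.1 hE hc).comap_of_injective C.subtype
    C.subtype_injective).exists_le_sylow
  obtain ⟨S₁, hS₁⟩ := ((isPGroup_closure_of_commute hG.1 hE₁ hc₁).comap_of_injective C.subtype
    C.subtype_injective).exists_le_sylow
  obtain ⟨h, hh⟩ := MulAction.exists_smul_eq C S₁ S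
  have hset := eq_of_two_group hG.1 hE hmax (T := (S : Subgroup C).map C.subtype) (S.isPGroup'.map _)
    fun u hu => ⟨⟨u, hl (subset_closure hu)⟩, hS (subset_closure hu : u ∈ closure E), rfl⟩
  have hsub : (fun z => ((h : G) * g₀) * z * ((h : G) * g₀)⁻¹) '' E = E := by
    refine Set.eq_of_subset_of_ncard_le ?_ ?_ (Set.toFinite _)
    · rintro _ ⟨z, hz, rfl⟩
      have hz1 : g₀ * z * g₀⁻¹ ∈ E₁ := ⟨z, hz, rfl⟩
      rw [← hset]
      refine ⟨hG.2.1 _ z (hE hz), ⟨h * ⟨_, hl₁ (subset_closure hz1)⟩ * h⁻¹, ?_, ?_⟩⟩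
      · rw [← hh, Sylow.coe_subgroup_smul, SetLike.mem_coe, Subgroup.mem_pointwise_smul_iff_inv_smul_mem]
        have := hS₁ (show (⟨_, hl₁ (subset_closure hz1)⟩ : C) ∈ (closure E₁).comap C.subtype from subset_closure hz1)
        simpa [mul_assoc] using this
      · show (h : G) * (g₀ * z * g₀⁻¹) * (h : G)⁻¹ = _
        rw [conj_conj]
    · rw [Set.ncard_image_of_injective _ fun u v h => by simpa using h]
  have hhc : Commute (h : G) c ∧ Commute (h : G) d :=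
    ⟨((mem_centralizer_iff.mp h.2) c (Or.inl rfl)).symm, ((mem_centralizer_iff.mp h.2) d (Or.inr rfl)).symm⟩
  exact ⟨(h : G) * g₀, mem_set_normalizer hsub, by rw [← conj_conj, h0a, hhc.1.eq, mul_inv_cancel_right],
    by rw [← conj_conj, h0b, hhc.2.eq, mul_inv_cancel_right]⟩

end CfsgLib.ThreeTransp
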