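import Cfsg.Agent.Lib.ThreeTransp.Derived

/-! Primitivity and simplicity of the derived subgroup. -/

set_option autoImplicit false

universe u

namespace CfsgLib.ThreeTransp

open Cfsg Subgroup
open scoped commutatorElement

variable {G : Type u} [Group G] [Finite G] {D : Set G}

theorem derived_nonabelian_of_width_two (hD : IsThreeTranspositionClass D)
    (hw : ∃ a ∈ D, ∃ b ∈ D, a ≠ b ∧ Commute a b) (hs : IsSimpleGroup (commutator G)) :
    ¬ ∀ a b : commutator G, a * b = b * a := by
  intro hab
  obtain ⟨a, ha, b, hb, hne, hcomm⟩ := hw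
  haveI := hs
  letI : CommGroup (commutator G) := { (inferInstance : Group (commutator G)) with mul_comm := hab }
  have hp : (Nat.card (commutator G)).Prime := IsSimpleGroup.prime_card
  have hidx : (commutator G).index ≤ 2 :=
    index_of_all_mem hD inferInstance ha fun x hx y hy => mul_mem_commutator hD hx hy
  have h0 : (commutator G).index ≠ 0 := index_ne_zero_of_finite
  have hG := group_of_class hD
  have hV : 4 ∣ Nat.card G := by
    haveI : Fact (Nat.Prime 2) := ⟨Nat.prime_two⟩
    obtain ⟨n, hn⟩ := (isPGroup_closure_of_commute hG.1 (E := {a, b})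
      (by rintro x (rfl | rfl) <;> assumption)
      (by rintro x (rfl | rfl) y (rfl | rfl)
          exacts [Commute.refl _, hcomm, hcomm.symm, Commute.refl _])).exists_card_eq
    have h3le : 3 ≤ Nat.card (closure ({a, b} : Set G)) := by
      have hsub : ({1, a, b} : Set G) ⊆ (closure ({a, b} : Set G) : Set G) := by
        rintro x (rfl | rfl | rfl)
        exacts [one_mem _, subset_closure (Or.inl rfl), subset_closure (Or.inr rfl)]
      have h := Set.ncard_le_ncard hsub (Set.toFinite _)
      rw [Set.ncard_insert_of_notMem (by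
        rintro (h | h)
        exacts [ne_one hG.1 ha h.symm, ne_one hG.1 hb (Set.mem_singleton_iff.mp h).symm]),
        Set.ncard_pair hne] at h
      exact h
    rw [hn] at h3le
    have hn2 : 2 ≤ n := by
      rcases n with _ | _ | n <;> simp at h3le ⊢
    exact (Nat.pow_dvd_pow 2 hn2).trans (hn ▸ Subgroup.card_subgroup_dvd_card _)
  have hcard := (commutator G).card_mul_index
  rcases (show (commutator G).index = 1 ∨ (commutator G).index = 2 by omega) with h | h <;> rw [h] at hcard
  · rw [mul_one] at hcard
    rw [← hcard] at hV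
    rcases hp.eq_one_or_self_of_dvd 4 hV with h | h
    · omega
    · exact absurd (h ▸ hp) (by decide)
  · rw [← hcard] at hV
    have h2 : 2 ∣ Nat.card (commutator G) := by omega
    rcases hp.eq_one_or_self_of_dvd 2 h2 with h | h
    · omega
    · apply hne
      have hcomm' : ∀ x y : G, x * y = y * x := by
        have : IsMulCommutative G := IsPGroup.isMulCommutative_of_card_eq_prime_sq (p := 2) (by rw [← hcard, ← h]; rfl)
        exact fun x y => mul_comm' x y
      obtain ⟨g, hg⟩ := exists_conj_of_class hD ha hb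
      rw [← hg, hcomm' g a, mul_inv_cancel_right]

theorem simple_derived_iff (hD : IsThreeTranspositionClass D) (hZ : center G = ⊥)
    (hw : ∃ a ∈ D, ∃ b ∈ D, a ≠ b ∧ Commute a b) :
    (IsSimpleGroup (commutator G) ↔ IsPrimitiveUnderConj D) ∧
      (IsPrimitiveUnderConj D ↔ (pCore 2 G = ⊥ ∧ pCore 3 G = ⊥ ∧ (commutingGraph D).Connected)) := by
  obtain ⟨a, ha, b, hb, hne, hab⟩ := id hw
  have hD2 : ∃ a ∈ D, ∃ b ∈ D, a ≠ b := ⟨a, ha, b, hb, hne⟩
  have hG := group_of_class hD
  refine ⟨⟨fun hs => primitive_of_simple hD hs (derived_nonabelian_of_width_two hD hw hs), fun hprim => ?_⟩,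
    ⟨fun hprim => ?_, fun ⟨e2, e3, hconn⟩ => ?_⟩⟩
  · obtain ⟨h2, h3⟩ := cores_central_of_primitive hG hprim hw
    obtain ⟨L, hLc, hLn, -, hF⟩ := exists_layer_component hD hD2 h2 h3
    obtain ⟨hidx, -⟩ := primitive_iff_index hD hD2 h2 h3 hLc.2 hLn hF (connected_of_primitive hG hprim hw)
    haveI := hLn
    have hcenL : center L = ⊥ := by
      rw [← (Subgroup.map_eq_bot_iff_of_injective _ L.subtype_injective), eq_bot_iff, ← hZ]
      refine (Core.le_fittingSubgroup inferInstance (Components.isNilpotent_of_comm ?_)).trans (fitting_central hD h2 h3)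
      rintro ⟨_, x, hx, rfl⟩ ⟨_, y, hy, rfl⟩
      exact Subtype.ext (by simpa using congrArg Subtype.val (mem_center_iff.mp hy x))
    have hLG : L = commutator G := by
      refine le_antisymm (sup_of_quasisimple hLc.2) ?_
      have h0 : L.index ≠ 0 := index_ne_zero_of_finite
      rcases (show L.index = 1 ∨ L.index = 2 by omega) with h | h
      · rw [index_eq_one.mp h]; exact le_top
      · haveI : Fact (Nat.Prime 2) := ⟨Nat.prime_two⟩
        haveI : IsCyclic (G ⧸ L) := isCyclic_of_prime_card (p := 2) (by rw [← index_eq_card]; exact h)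
        rw [_root_.commutator_def, commutator_le]
        intro x _ y _
        refine (QuotientGroup.eq_one_iff _).mp ?_
        show QuotientGroup.mk' L ⁅x, y⁆ = 1
        rw [map_commutatorElement, commutatorElement_eq_one_iff_commute]
        obtain ⟨c, hc⟩ := IsCyclic.exists_generator (α := G ⧸ L)
        obtain ⟨i, hi⟩ := mem_zpowers_iff.mp (hc (QuotientGroup.mk' L x))
        obtain ⟨j, hj⟩ := mem_zpowers_iff.mp (hc (QuotientGroup.mk' L y))
        rw [← hi, ← hj]
        exact Commute.zpow_zpow (Commute.refl _) _ _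
    haveI := hLc.2.2
    rw [← hLG]
    exact ((QuotientGroup.quotientMulEquivOfEq hcenL).trans QuotientGroup.quotientBot).symm.isSimpleGroup
  · obtain ⟨h2, h3⟩ := cores_central_of_primitive hG hprim hw
    rw [hZ] at h2 h3
    exact ⟨le_bot_iff.mp h2, le_bot_iff.mp h3, connected_of_primitive hG hprim hw⟩
  · have h2 : pCore 2 G ≤ center G := by rw [e2]; exact bot_le
    have h3 : pCore 3 G ≤ center G := by rw [e3]; exact bot_le
    obtain ⟨L, hLc, hLn, -, hF⟩ := exists_layer_component hD hD2 h2 h3
    exact (primitive_iff_index hD hD2 h2 h3 hLc.2 hLn hF hconn).2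

end CfsgLib.ThreeTransp
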