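import Cfsg.Agent.Lib.ThreeTransp.LocalS3Main
import Cfsg.Agent.Lib.ThreeTransp.Derived
import Cfsg.Agent.Lib.ThreeTransp.ZStar

/-! Twins inside a perp force the triangle-free case. -/

set_option autoImplicit false

universe u

namespace CfsgLib.TwinsS5

open Cfsg Subgroup CfsgLib.ThreeTransp

variable {G : Type u} [Group G] {D : Set G}

/-- The common partners. -/
def A (D : Set G) (x y : G) : Set G := perp D x ∩ perp D y

/-- `z` is a twin of `y` inside the perp of `x`. -/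
def Twin (D : Set G) (x y z : G) : Prop :=
  x ∈ D ∧ y ∈ perp D x ∧ z ∈ perp D x ∧ y ≠ z ∧ ¬ Commute y z ∧ A D x y = A D x z

variable (hG : IsThreeTranspositionGroup D)
include hG

theorem perp_symm {a b : G} (ha : a ∈ D) (hb : b ∈ perp D a) : a ∈ perp D b :=
  ⟨ha, hb.2.1.symm, hb.2.2.symm⟩

theorem mem_perp_iff (g u v : G) : u ∈ perp D (g * v * g⁻¹) ↔ g⁻¹ * u * g ∈ perp D v := by
  have key : ∀ (g u v : G), u ∈ perp D v → g * u * g⁻¹ ∈ perp D (g * v * g⁻¹) := fun g u v h =>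
    ⟨hG.2.1 g u h.1, fun e => h.2.1 (mul_left_cancel (mul_right_cancel e)), commute_conj g h.2.2⟩
  refine ⟨fun h => ?_, fun h => ?_⟩
  · have := key g⁻¹ u _ h
    rwa [inv_inv, show g⁻¹ * (g * v * g⁻¹) * g = v by group] at this
  · have := key g _ v h
    rwa [show g * (g⁻¹ * u * g) * g⁻¹ = u by group] at this

theorem A_conj {g x y z : G} (h : A D x y = A D x z) :
    A D (g * x * g⁻¹) (g * y * g⁻¹) = A D (g * x * g⁻¹) (g * z * g⁻¹) := by
  ext u
  simp only [A, Set.mem_inter_iff, mem_perp_iff hG]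
  exact Set.ext_iff.mp h _

theorem twin_conj {g x y z : G} (h : Twin D x y z) :
    Twin D (g * x * g⁻¹) (g * y * g⁻¹) (g * z * g⁻¹) := by
  obtain ⟨h1, h2, h3, h4, h5, h6⟩ := h
  refine ⟨hG.2.1 g x h1, ?_, ?_, fun e => h4 (mul_left_cancel (mul_right_cancel e)),
    fun hh => h5 ((commute_conj_iff g).mp hh), A_conj hG h6⟩
  · rw [mem_perp_iff hG, show g⁻¹ * (g * y * g⁻¹) * g = y by group]; exact h2
  · rw [mem_perp_iff hG, show g⁻¹ * (g * z * g⁻¹) * g = z by group]; exact h3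

/-- An exceptional partner `p` of `y`: the four generate `Sym(5)` centralised by the common partners. -/
theorem exc {x y z p : G} (h : Twin D x y z) (hp : p ∈ perp D y) (hpz : ¬ Commute p z) :
    ¬ Commute p x ∧ (∀ b ∈ A D x y, Commute b p) ∧ ∀ b ∈ A D y p, b ∈ A D x y := by
  obtain ⟨hx, hy, hz, hyz, hnyz, hA⟩ := h
  have hpx : ¬ Commute p x := by
    intro hh
    rcases eq_or_ne p x with rfl | hne
    · exact hpz hz.2.2
    · have : p ∈ A D x z := hA ▸ (⟨⟨hp.1, hne, hh.symm⟩, hp⟩ : p ∈ A D x y)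
      exact hpz this.2.2.2.symm
  have hD := hG.1
  have R : Rel5 x p z y := ⟨rel4 hD hx hp.1 hz.1 hz.2.2 (fun hh => hpx hh.symm) hpz, mul_self hD hy.1,
    by rw [← mul_assoc, ← mul_assoc]; exact braid hD hz.1 hy.1 (fun hh => hnyz hh.symm),
    hy.2.2.eq, hp.2.2.symm.eq⟩
  obtain ⟨π, hπ⟩ : ∃ π : Equiv.Perm (Fin 5), π = Equiv.swap 0 4 * Equiv.swap 1 3 := ⟨_, rfl⟩
  obtain ⟨g, hg⟩ : ∃ g, g = hom5 R π := ⟨_, rfl⟩
  have hc : ∀ s t : Fin 4, π * pgen5 s * π⁻¹ = pgen5 t →
      g * gen5 x p z y s * g⁻¹ = gen5 x p z y t := by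
    intro s t hst
    rw [← hom5_gen R s, ← hom5_gen R t, hg, ← map_inv, ← map_mul, ← map_mul, hst]
  have gx : g * x * g⁻¹ = y := hc 0 3 (by rw [hπ]; decide +kernel)
  have gy : g * y * g⁻¹ = x := hc 3 0 (by rw [hπ]; decide +kernel)
  have gz : g * z * g⁻¹ = p := hc 2 1 (by rw [hπ]; decide +kernel)
  have gp : g * p * g⁻¹ = z := hc 1 2 (by rw [hπ]; decide +kernel)
  refine ⟨hpx, fun b hb => ?_, fun b hb => ?_⟩
  · have h1 : g * b * g⁻¹ ∈ A D x z := by
      rw [← hA]
      refine ⟨?_, ?_⟩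
      · rw [← gy, mem_perp_iff hG, show g⁻¹ * (g * b * g⁻¹) * g = b by group]; exact hb.2
      · rw [← gx, mem_perp_iff hG, show g⁻¹ * (g * b * g⁻¹) * g = b by group]; exact hb.1
    have h2 : Commute (g * b * g⁻¹) z := h1.2.2.2.symm
    rw [← gp] at h2
    exact (commute_conj_iff g).mp h2
  · have h1 : g * b * g⁻¹ ∈ A D x z := by
      refine ⟨?_, ?_⟩
      · rw [← gy, mem_perp_iff hG, show g⁻¹ * (g * b * g⁻¹) * g = b by group]; exact hb.1
      · rw [← gp, mem_perp_iff hG, show g⁻¹ * (g * b * g⁻¹) * g = b by group]; exact hb.2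
    rw [← hA] at h1
    refine ⟨?_, hb.1⟩
    have h2 := h1.2
    rw [← gx, mem_perp_iff hG, show g⁻¹ * (g * b * g⁻¹) * g = b by group] at h2
    exact h2

variable [Finite G]

theorem exists_exc (hnt : ∀ y ∈ D, ∀ z ∈ D, perp D z = perp D y → z = y) {x y z : G} (h : Twin D x y z) :
    ∃ p ∈ perp D y, ¬ Commute p z := by
  by_contra hcon
  push Not at hcon
  obtain ⟨hx, hy, hz, hyz, hnyz, hA⟩ := h
  refine hyz (hnt y hy.1 z hz.1 ?_).symm
  have hsub : perp D y ⊆ perp D z := fun p hp => by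
    refine ⟨hp.1, fun e => hnyz ?_, (hcon p hp).symm⟩
    rw [e] at hp
    exact hp.2.2
  have himg : perp D z = (fun u => (y * z) * u * (y * z)⁻¹) '' perp D y := by
    have e := conj_mul_eq hG.1 hy.1 hz.1 hnyz
    conv_lhs => rw [← e]
    rw [perp_conj hG]
  refine (Set.eq_of_subset_of_ncard_le hsub ?_ (Set.toFinite _)).symm
  rw [himg, Set.ncard_image_of_injective _ fun a b e => mul_left_cancel (mul_right_cancel e)]

/-- Twins inside a perp have no common partner. -/
theorem A_empty (hnt : ∀ y ∈ D, ∀ z ∈ D, perp D z = perp D y → z = y)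
    (htr : ∀ x ∈ D, ∀ y ∈ perp D x, ∀ z ∈ perp D x, ∃ g : G, Commute g x ∧ g * y * g⁻¹ = z)
    {x y z : G} (h : Twin D x y z) : A D x y = ∅ := by
  by_contra hne
  obtain ⟨a, ha⟩ := Set.nonempty_iff_ne_empty.mpr hne
  obtain ⟨hx, hy, hz, hyz, hnyz, hA⟩ := id h
  have hD := hG.1
  obtain ⟨g, hgx, hgy⟩ := htr x hx y hy a ha.1
  obtain ⟨a', ha'⟩ : ∃ a', a' = g * z * g⁻¹ := ⟨_, rfl⟩
  have ht : Twin D x a a' := by
    have := twin_conj hG (g := g) h
    rwa [hgy, ← ha', hgx.eq, mul_inv_cancel_right] at this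
  obtain ⟨p, hp, hpz⟩ := exists_exc hG hnt h
  obtain ⟨p', hp', hpa'⟩ := exists_exc hG hnt ht
  obtain ⟨hpx, hpA, hAyp⟩ := exc hG h hp hpz
  obtain ⟨hpx', hpA', -⟩ := exc hG ht hp' hpa'
  have hyA : y ∈ A D x a := ⟨hy, perp_symm hG hy.1 ha.2⟩
  have hzA : z ∈ A D x a := ⟨hz, perp_symm hG hz.1 (hA ▸ ha : a ∈ A D x z).2⟩
  have ha'A : a' ∈ A D x y :=
    ⟨ht.2.2.1, perp_symm hG ht.2.2.1.1 (ht.2.2.2.2.2 ▸ hyA : y ∈ A D x a').2⟩
  have hpa : Commute a p := hpA a ha
  have hpa'' : Commute a' p := hpA a' ha'A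
  have hp'y : Commute y p' := hpA' y hyA
  have hp'z : Commute z p' := hpA' z hzA
  have hpp' : ¬ Commute p p' := by
    intro hh
    have hne1 : p' ≠ y := fun e => hpx' (by rw [e]; exact hy.2.2.symm)
    have hne2 : p' ≠ p := fun e => hpz (e ▸ hp'z.symm)
    have := hAyp p' ⟨⟨hp'.1, hne1, hp'y⟩, ⟨hp'.1, hne2, hh⟩⟩
    exact hpx' this.1.2.2.symm
  have bpp := braid hD hp.1 hp'.1 hpp'
  obtain ⟨w, hw⟩ : ∃ w, w = p * p' * p := ⟨_, rfl⟩
  have hwD : w ∈ D := by
    rw [hw]
    have := hG.2.1 p p' hp'.1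
    rwa [inv_eq hD hp.1] at this
  have hwy : Commute w y := by
    rw [hw]
    exact ((hp.2.2.symm.mul_left hp'y.symm).mul_left hp.2.2.symm)
  have hwa : Commute w a := by
    rw [hw]
    exact ((hpa.symm.mul_left hp'.2.2.symm).mul_left hpa.symm)
  have hback : p' * w * p' = p := by
    rw [hw, bpp]
    simp only [mul_assoc, mul_self hD hp'.1, mul_one]
    rw [← mul_assoc, mul_self hD hp'.1, one_mul]
  have hback' : p * w * p = p' := by
    rw [hw]
    simp only [mul_assoc, mul_self hD hp.1, mul_one]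
    rw [← mul_assoc, mul_self hD hp.1, one_mul]
  by_cases hwx : Commute w x
  · have hne : w ≠ x := by
      intro e
      apply hpz
      have h1 : p' = x * p * x := by
        rw [← hback', e]; exact (braid hD hx hp.1 (fun hh => hpx hh.symm)).symm
      have h2 : p = x * p' * x := by
        rw [h1]; simp only [mul_assoc, mul_self hD hx, mul_one]
        rw [← mul_assoc, mul_self hD hx, one_mul]
      rw [h2]
      exact ((hz.2.2.mul_left hp'z.symm).mul_left hz.2.2)
    have hne' : w ≠ y := by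
      intro e
      apply hpp'
      have h1 : p' = y := by
        rw [← hback', e, hp.2.2.symm.eq, mul_assoc, mul_self hD hp.1, mul_one]
      rw [h1]; exact hp.2.2.symm
    have := hpA w ⟨⟨hwD, hne, hwx.symm⟩, ⟨hwD, hne', hwy.symm⟩⟩
    apply hpp'
    show p * p' = p' * p
    rw [hw] at this
    have h3 := this.eq
    rw [mul_assoc (p * p') p p, mul_self hD hp.1, mul_one, ← mul_assoc p (p * p') p,
      ← mul_assoc p p p', mul_self hD hp.1, one_mul] at h3
    exact h3
  · have hne : w ≠ a := fun e => hwx (e ▸ ha.1.2.2.symm)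
    have hwa' : ¬ Commute w a' := by
      intro hh
      apply hpa'
      rw [← hback']
      exact ((hpa''.symm.mul_left hh).mul_left hpa''.symm)
    obtain ⟨-, hA', -⟩ := exc hG ht ⟨hwD, hne, hwa.symm⟩ hwa'
    apply hpz
    rw [← hback]
    exact ((hp'z.symm.mul_left (hA' z hzA).symm).mul_left hp'z.symm)

/-- A pairwise non-commuting closed set of transpositions has 3-power size. -/
theorem ncard_eq_three_pow (hZ : ZStarAll.{u}) {S : Set G} (hS : S ⊆ D) (hne : S.Nonempty)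
    (hnc : ∀ a ∈ S, ∀ b ∈ S, a ≠ b → ¬ Commute a b) (hcl : ∀ a ∈ S, ∀ b ∈ S, a * b * a ∈ S) :
    ∃ m : ℕ, S.ncard = 3 ^ m := by
  classical
  obtain ⟨d, hd⟩ := hne
  have hD := hG.1
  set H := closure S with hH
  have hinv : ∀ g ∈ H, ∀ s ∈ S, g * s * g⁻¹ ∈ S := by
    intro g hg
    induction hg using closure_induction'' with
    | mem a ha => intro s hs; rw [inv_eq hD (hS ha)]; exact hcl a ha s hs
    | inv_mem a ha => intro s hs; rw [inv_inv, inv_eq hD (hS ha)]; exact hcl a ha s hs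
    | one => intro s hs; simpa using hs
    | mul a b _ _ ia ib =>
      intro s hs
      rw [show a * b * s * (a * b)⁻¹ = a * (b * s * b⁻¹) * a⁻¹ by group]
      exact ia _ (ib s hs)
  let d' : H := ⟨d, subset_closure hd⟩
  have hconjS : ∀ a ∈ conjugatesOf d', (a : G) ∈ S := by
    intro a ha
    obtain ⟨g, rfl⟩ := isConj_iff.mp ha
    exact hinv g g.2 d hd
  haveI : Fact (Nat.Prime 3) := ⟨Nat.prime_three⟩
  have hprod := products_mem_pCore (hZ H) Nat.prime_three (by norm_num) (d := d')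
    (by rw [← Subgroup.orderOf_coe]; exact hD.1 d (hS hd)) (fun a ha b hb => by
      rcases eq_or_ne a b with rfl | hab
      · refine ⟨0, ?_⟩
        rw [pow_zero, orderOf_eq_one_iff]
        exact Subtype.ext (mul_self hD (hS (hconjS a ha)))
      · have hne' : (a : G) ≠ b := fun e => hab (Subtype.ext e)
        refine ⟨1, ?_⟩
        rw [pow_one]
        refine orderOf_eq_prime (Subtype.ext ?_) fun e => hne' ?_
        · exact cube_eq hD (hS (hconjS a ha)) (hS (hconjS b hb))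
            (hnc _ (hconjS a ha) _ (hconjS b hb) hne')
        · exact (eq_of_mul_eq_one hD (hS (hconjS a ha)) (congrArg Subtype.val e)).symm)
  letI : MulAction (pCore 3 H) H :=
    MulAction.compHom H ((ConjAct.toConjAct : H ≃* ConjAct H).toMonoidHom.comp (pCore 3 H).subtype)
  have hact : ∀ (k : pCore 3 H) (v : H), k • v = (k : H) * v * (k : H)⁻¹ := fun k v => by
    show ConjAct.toConjAct (k : H) • v = _
    rw [ConjAct.toConjAct_smul]
  obtain ⟨m, hm⟩ := (Core.isPGroup_pCore (G := H) 3).card_orbit d'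
  refine ⟨m, ?_⟩
  have himg : S = Subtype.val '' (MulAction.orbit (pCore 3 H) d') := by
    ext s
    constructor
    · intro hs
      rcases eq_or_ne d s with rfl | hne
      · exact ⟨d', MulAction.mem_orbit_self _, rfl⟩
      · have hn := hnc d hd s hs hne
        let s' : H := ⟨s, subset_closure hs⟩
        have hsc : s' ∈ conjugatesOf d' :=
          isConj_iff.mpr ⟨d' * s', Subtype.ext (conj_mul_eq hD (hS hd) (hS hs) hn)⟩
        refine ⟨s', ⟨⟨d' * s', hprod d' mem_conjugatesOf_self s' hsc⟩, ?_⟩, rfl⟩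
        show (⟨d' * s', _⟩ : pCore 3 H) • d' = s'
        rw [hact]
        exact Subtype.ext (conj_mul_eq hD (hS hd) (hS hs) hn)
    · rintro ⟨v, ⟨k, rfl⟩, rfl⟩
      show ((k • d' : H) : G) ∈ S
      rw [hact]
      exact hinv _ (k : H).2 d hd
  rw [himg, Set.ncard_image_of_injective _ Subtype.val_injective, ← Nat.card_coe_set_eq, hm]

omit hG in
omit [Finite G] in
theorem not_square : ∀ (s t u : ℕ), t * t = 3 ^ s * u → u % 3 = 2 → False := by
  intro s
  induction s using Nat.strong_induction_on with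
  | _ s ih =>
    intro t u h hu
    match s, h with
    | 0, h =>
      rw [pow_zero, one_mul] at h
      have h1 := Nat.mul_mod t t 3
      rw [h, hu] at h1
      have : t % 3 = 0 ∨ t % 3 = 1 ∨ t % 3 = 2 := by omega
      rcases this with e | e | e <;> rw [e] at h1 <;> omega
    | 1, h =>
      have h3 : 3 ∣ t * t := ⟨u, by rw [h, pow_one]⟩
      obtain ⟨t', rfl⟩ := (Nat.prime_three.dvd_mul.mp h3).elim id id
      have : u = 3 * (t' * t') := by linarith
      omega
    | s + 2, h =>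
      have h3 : 3 ∣ t * t := ⟨3 ^ (s + 1) * u, by rw [h, pow_succ]; ring⟩
      obtain ⟨t', rfl⟩ := (Nat.prime_three.dvd_mul.mp h3).elim id id
      refine ih s (by omega) t' u ?_ hu
      have : 9 * (t' * t') = 9 * (3 ^ s * u) := by
        calc 9 * (t' * t') = 3 * t' * (3 * t') := by ring
          _ = 3 ^ (s + 2) * u := h
          _ = _ := by ring
      omega

omit hG in
omit [Finite G] in
/-- The eigenvalue argument for a triangle-free graph with constant valency and constant `μ`. -/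
theorem srg_square {α : Type*} [Fintype α] [Nonempty α] (r : α → α → Prop) (k μ : ℕ) (hk : 3 ≤ k) (hμ : 1 ≤ μ)
    (hμk : μ ≤ k) (hsymm : ∀ u v, r u v → r v u) (hirr : ∀ u, ¬ r u u)
    (hval : ∀ u, {w | r u w}.ncard = k)
    (hadj : ∀ u v, r u v → {w | r u w ∧ r w v}.ncard = 0)
    (hnadj : ∀ u v, u ≠ v → ¬ r u v → {w | r u w ∧ r w v}.ncard = μ) :
    ∃ s : ℕ, s * s = μ * μ + 4 * (k - μ) := by
  classical
  let Am : Matrix α α ℝ := Matrix.of fun u v => if r u v then 1 else 0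
  let J : Matrix α α ℝ := Matrix.of fun _ _ => 1
  let M : Matrix α α ℝ := (2 : ℝ) • Am + (μ : ℝ) • (1 : Matrix α α ℝ)
  obtain ⟨n, hn⟩ : ∃ n : ℕ, n = Fintype.card α := ⟨_, rfl⟩
  have hn0 : 0 < n := hn ▸ Fintype.card_pos
  obtain ⟨c, hc⟩ : ∃ c : ℕ, c = μ * μ + 4 * (k - μ) := ⟨_, rfl⟩
  have hcR : (c : ℝ) = μ * μ + 4 * (k - μ) := by rw [hc]; push_cast [hμk]; ring
  have hcnt : ∀ (P : α → Prop), (∑ w, (if P w then (1 : ℝ) else 0)) = ({w | P w}.ncard : ℝ) := fun P => by
    rw [Finset.sum_boole, Set.ncard_eq_toFinset_card', Set.toFinset_ofPred]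
  have hAA : Am * Am = ((k : ℝ) - μ) • (1 : Matrix α α ℝ) + (μ : ℝ) • (J - Am) := by
    ext u v
    have hsum : (Am * Am) u v = ({w | r u w ∧ r w v}.ncard : ℝ) := by
      rw [Matrix.mul_apply, ← hcnt]
      refine Finset.sum_congr rfl fun w _ => ?_
      by_cases h1 : r u w <;> by_cases h2 : r w v <;> simp [Am, h1, h2]
    rw [hsum]
    by_cases huv : u = v
    · subst huv
      have : {w | r u w ∧ r w u} = {w | r u w} :=
        Set.ext fun w => ⟨fun h => h.1, fun h => ⟨h, hsymm _ _ h⟩⟩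
      rw [this, hval]
      simp [Am, J, hirr u]
    · by_cases hr : r u v
      · rw [hadj u v hr]; simp [Am, J, hr, huv, Matrix.one_apply_ne huv]
      · rw [hnadj u v huv hr]; simp [Am, J, hr, huv, Matrix.one_apply_ne huv]
  have hAJ : Am * J = (k : ℝ) • J := by
    ext u v
    rw [Matrix.mul_apply]
    simp only [J, Am, Matrix.of_apply, mul_one, Matrix.smul_apply, smul_eq_mul]
    rw [hcnt, hval]
  have hJA : J * Am = (k : ℝ) • J := by
    ext u v
    rw [Matrix.mul_apply]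
    simp only [J, Am, Matrix.of_apply, one_mul, Matrix.smul_apply, smul_eq_mul, mul_one]
    rw [hcnt, show {w | r w v} = {w | r v w} from Set.ext fun w => ⟨hsymm _ _, hsymm _ _⟩, hval]
  have hJJ : J * J = (n : ℝ) • J := by
    ext u v
    simp [J, Matrix.mul_apply, hn]
  have hMJ : M * J = (2 * k + μ : ℝ) • J := by
    simp only [M, add_mul, Matrix.smul_mul, hAJ, one_mul, smul_smul, ← add_smul]
  have hJM : J * M = (2 * k + μ : ℝ) • J := by
    simp only [M, mul_add, Matrix.mul_smul, hJA, mul_one, smul_smul, ← add_smul]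
  have hMM : M * M = (c : ℝ) • (1 : Matrix α α ℝ) + (4 * μ : ℝ) • J := by
    rw [hcR]
    simp only [M, add_mul, mul_add, Matrix.smul_mul, Matrix.mul_smul, one_mul, mul_one, smul_smul, hAA]
    module
  have hrow : ((2 * k + μ : ℝ)) ^ 2 = c + 4 * μ * n := by
    have h1 : M * M * J = ((2 * k + μ : ℝ) ^ 2) • J := by
      rw [mul_assoc, hMJ, Matrix.mul_smul, hMJ, smul_smul, pow_two]
    rw [hMM, add_mul, Matrix.smul_mul, Matrix.smul_mul, one_mul, hJJ, smul_smul, ← add_smul] at h1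
    obtain ⟨u⟩ := (inferInstance : Nonempty α)
    have h2 := congrFun (congrFun h1 u) u
    simpa [J] using h2.symm
  have hnR : (n : ℝ) ≠ 0 := by exact_mod_cast hn0.ne'
  let P0 : Matrix α α ℝ := 1 - ((n : ℝ)⁻¹) • J
  let N : Matrix α α ℝ := M - ((2 * k + μ : ℝ) * (n : ℝ)⁻¹) • J
  have hNN : N * N = (c : ℝ) • P0 := by
    simp only [N, P0, sub_mul, mul_sub, Matrix.smul_mul, Matrix.mul_smul, hMM, hMJ, hJM, hJJ, smul_smul,
      smul_sub]
    match_scalars <;> field_simp <;> linear_combination (-1 : ℝ) * hrow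
  have hP0 : P0 * P0 = P0 := by
    simp only [P0, sub_mul, mul_sub, Matrix.smul_mul, Matrix.mul_smul, hJJ, one_mul, mul_one, smul_smul]
    match_scalars <;> field_simp <;> ring
  have hNP : N * P0 = N := by
    simp only [N, P0, sub_mul, mul_sub, Matrix.smul_mul, Matrix.mul_smul, hMJ, hJJ, mul_one, smul_smul]
    match_scalars <;> field_simp <;> ring
  have hPN : P0 * N = N := by
    simp only [N, P0, sub_mul, mul_sub, Matrix.smul_mul, Matrix.mul_smul, hJM, hJJ, one_mul, smul_smul]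
    match_scalars <;> field_simp <;> ring
  have hcpos : (0 : ℝ) < c := by
    have : 0 < c := by rw [hc]; positivity
    exact_mod_cast this
  obtain ⟨σ, hσ⟩ : ∃ σ, σ = Real.sqrt c := ⟨_, rfl⟩
  have hσ2 : σ * σ = c := by rw [hσ]; exact Real.mul_self_sqrt hcpos.le
  have hσ0 : σ ≠ 0 := fun h => by rw [h] at hσ2; linarith
  let P : Matrix α α ℝ := (2 : ℝ)⁻¹ • (P0 + σ⁻¹ • N)
  have hP : IsIdempotentElem P := by
    show P * P = P
    simp only [P, Matrix.smul_mul, Matrix.mul_smul, add_mul, mul_add, hP0, hNP, hPN, hNN, smul_smul,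
      smul_add]
    rw [← hσ2]
    match_scalars <;> field_simp <;> ring
  obtain ⟨rk, hrk⟩ : ∃ rk : ℕ, P.trace = rk := by
    have hproj : LinearMap.IsProj (LinearMap.range P.toLin') P.toLin' := by
      refine ⟨fun v => LinearMap.mem_range_self _ v, ?_⟩
      rintro v ⟨w, rfl⟩
      rw [← Matrix.toLin'_mul_apply, hP.eq]
    exact ⟨_, by rw [← Matrix.trace_toLin'_eq]; exact hproj.trace⟩
  have htJ : J.trace = n := by simp [J, Matrix.trace, hn]
  have htA : Am.trace = 0 := by simp [Am, Matrix.trace, hirr]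
  have ht1 : (1 : Matrix α α ℝ).trace = n := by simp [hn]
  have htr : P.trace = ((n : ℝ) - 1 + σ⁻¹ * (μ * n - (2 * k + μ))) / 2 := by
    simp only [P, P0, N, M, Matrix.trace_smul, Matrix.trace_add, Matrix.trace_sub, htJ, htA, ht1, smul_eq_mul]
    field_simp
    ring
  rw [hrk] at htr
  obtain ⟨t, ht⟩ : ∃ t : ℤ, t = (μ : ℤ) * n - (2 * k + μ) := ⟨_, rfl⟩
  obtain ⟨q, hq⟩ : ∃ q : ℤ, q = 2 * (rk : ℤ) - n + 1 := ⟨_, rfl⟩
  have htq : (t : ℝ) = (q : ℝ) * σ := by
    rw [ht, hq]; push_cast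
    rw [htr]; field_simp; ring
  have htne : t ≠ 0 := by
    intro h0
    have h1 : ((2 * k + μ : ℕ) : ℝ) ^ 2 = ((c + 4 * μ * n : ℕ) : ℝ) := by push_cast; exact hrow
    have h2 : (2 * k + μ) ^ 2 = c + 4 * μ * n := by exact_mod_cast h1
    have h3 : μ * n = 2 * k + μ := by
      have : ((μ * n : ℕ) : ℤ) = ((2 * k + μ : ℕ) : ℤ) := by push_cast; omega
      exact_mod_cast this
    obtain ⟨j, rfl⟩ := Nat.exists_eq_add_of_le hμk
    rw [hc, Nat.add_sub_cancel_left] at h2
    nlinarith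
  have hsq : t * t = q * q * (c : ℤ) := by
    have : ((t * t : ℤ) : ℝ) = ((q * q * (c : ℤ) : ℤ) : ℝ) := by
      push_cast; rw [htq, ← hσ2]; ring
    exact_mod_cast this
  have hqt : q ∣ t := (Int.pow_dvd_pow_iff (two_ne_zero)).mp ⟨c, by rw [pow_two, pow_two, hsq]⟩
  obtain ⟨s, hs⟩ := hqt
  have hq0 : q ≠ 0 := fun h => htne (by rw [hs, h, zero_mul])
  refine ⟨s.natAbs, ?_⟩
  rw [← hc]
  have h4 : s * s = (c : ℤ) := by
    apply mul_left_cancel₀ (mul_ne_zero hq0 hq0)
    rw [hs] at hsq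
    linear_combination hsq
  exact_mod_cast (show ((s.natAbs * s.natAbs : ℕ) : ℤ) = (c : ℤ) by rw [Int.natAbs_mul_self]; exact h4)

end CfsgLib.TwinsS5
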