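import Cfsg.Agent.Lib.ThreeTransp.TwinsS5

/-! A non-central odd core of `⟨D_x⟩` forces `Sym(5)`. -/

set_option autoImplicit false

universe u

namespace CfsgLib.TwinsS5

open Cfsg Subgroup CfsgLib.ThreeTransp CfsgLib.LocalS3

variable {G : Type u} [Group G] [Finite G] {D : Set G}

theorem result (hsol : ∀ N : Subgroup G, N.Normal → Group.IsSolvable ↥N → N = ⊥)
    (hperf : ⁅commutator G, commutator G⁆ = commutator G) (hD : IsThreeTranspositionClass D) {x : G}
    (hx : x ∈ D) (h : ¬ oddCore ↥(closure (perp D x)) ≤ center ↥(closure (perp D x))) :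
    Nonempty (G ≃* Equiv.Perm (Fin 5)) := by
  classical
  have hG := group_of_class hD
  have hT := hG.1
  have hmem2 : ∀ {a b : G}, a ∈ D → b ∈ D → a * b * a ∈ D := fun {a b} ha hb => by
    have := hG.2.1 a b hb
    rwa [inv_eq hT ha] at this
  set X := closure (perp D x) with hX
  -- a twin pair from the odd core
  obtain ⟨g, hg, y, hy, hgy⟩ : ∃ g : X, g ∈ oddCore X ∧ ∃ y, y ∈ perp D x ∧ ¬ Commute (g : G) y := by
    by_contra hcon
    push Not at hcon
    refine h fun g hg => mem_center_iff.mpr fun t => Subtype.ext ?_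
    have hle : X ≤ centralizer ({(g : G)} : Set G) :=
      (closure_le _).mpr fun v hv => mem_centralizer_singleton_iff.mpr (hcon g hg v hv).eq.symm
    exact mem_centralizer_singleton_iff.mp (hle t.2)
  haveI hNn : (oddCore X).Normal := by
    haveI := Core.pPrimeCore_characteristic (G := X) 2
    exact (inferInstance : (pPrimeCore 2 X).Normal)
  have hoddN : ∀ v ∈ oddCore X, (v : G) * v = 1 → (v : G) = 1 := by
    intro v hv h2
    have h3 : (Nat.card (oddCore X)).Coprime 2 := Core.card_pPrimeCore_coprime 2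
    have h4 : orderOf (⟨v, hv⟩ : oddCore X) ∣ 2 := by
      apply orderOf_dvd_of_pow_eq_one
      exact Subtype.ext (Subtype.ext (by rw [pow_two]; exact h2))
    have h5 := Nat.eq_one_of_dvd_coprimes h3 (orderOf_dvd_natCard _) h4
    rw [orderOf_eq_one_iff] at h5
    exact congrArg (fun e : oddCore X => ((e : X) : G)) h5
  have hXx : ∀ v ∈ X, Commute v x := by
    intro v hv
    have : X ≤ centralizer ({x} : Set G) :=
      (closure_le _).mpr fun w hw => mem_centralizer_singleton_iff.mpr hw.2.2.eq.symm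
    exact mem_centralizer_singleton_iff.mp (this hv)
  obtain ⟨z, hzdef⟩ : ∃ z, z = (g : G) * y * (g : G)⁻¹ := ⟨_, rfl⟩
  have hz : z ∈ perp D x := by
    refine ⟨hzdef ▸ hG.2.1 _ y hy.1, fun e => hy.2.1 ?_, ?_⟩
    · rw [hzdef] at e
      calc y = (g : G)⁻¹ * ((g : G) * y * (g : G)⁻¹) * g := by group
        _ = (g : G)⁻¹ * (x * g) := by rw [e, mul_assoc]
        _ = x := by rw [← (hXx g g.2).eq, inv_mul_cancel_left]
    · rw [hzdef]
      exact (((hXx g g.2).symm.mul_right hy.2.2).mul_right (hXx g g.2).symm.inv_right)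
  have hyzN : (⟨y, subset_closure hy⟩ * ⟨z, subset_closure hz⟩ : X) ∈ oddCore X := by
    have h1 : (⟨y, subset_closure hy⟩ : X) * g * ⟨y, subset_closure hy⟩⁻¹ * g⁻¹ ∈ oddCore X :=
      mul_mem (hNn.conj_mem g hg _) (inv_mem hg)
    convert h1 using 1
    refine Subtype.ext ?_
    simp only [Subgroup.coe_mul, Subgroup.coe_inv, hzdef, inv_eq hT hy.1, mul_assoc]
  have hyz : ¬ Commute y z := by
    intro hc
    have h2 := hoddN _ hyzN (by
      show y * z * (y * z) = 1
      calc y * z * (y * z) = y * (z * y) * z := by simp only [mul_assoc]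
        _ = (y * y) * (z * z) := by rw [← hc.eq]; simp only [mul_assoc]
        _ = 1 := by rw [mul_self hT hy.1, mul_self hT hz.1, one_mul])
    have h3 : z = y := eq_of_mul_eq_one hT hy.1 (show y * z = 1 from h2)
    exact hgy (conjMem_iff.mp (hzdef ▸ h3))
  have hsub : ∀ y z : G, ∀ hy : y ∈ perp D x, ∀ hz : z ∈ perp D x,
      (⟨y, subset_closure hy⟩ * ⟨z, subset_closure hz⟩ : X) ∈ oddCore X → ¬ Commute y z →
      A D x y ⊆ A D x z := by
    intro y z hy hz hN hnc a ha
    refine ⟨ha.1, ha.1.1, fun e => hnc (e ▸ ha.2.2.2), ?_⟩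
    by_contra hza
    have R : Rel4 y z a := rel4 hT hy.1 hz.1 ha.1.1 ha.2.2.2 hnc hza
    obtain ⟨ga, gb, gc⟩ := hom4_gen R
    obtain ⟨σ, τ, hστ⟩ := two_conjugates (pa * pb) (by decide)
    have hran : ∀ π, hom4 R π ∈ X := by
      intro π
      show ev y z a (inv' π) ∈ X
      obtain ⟨i, j, l⟩ := inv' π
      refine mul_mem (mul_mem ?_ ?_) ?_
      · fin_cases i
        exacts [one_mem _, subset_closure ha.1, mul_mem (subset_closure hz) (subset_closure ha.1),
          mul_mem (subset_closure hy) (mul_mem (subset_closure hz) (subset_closure ha.1))]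
      · fin_cases j
        exacts [one_mem _, subset_closure hz, mul_mem (subset_closure hy) (subset_closure hz)]
      · fin_cases l
        exacts [one_mem _, subset_closure hy]
    have hya : (⟨y, subset_closure hy⟩ * ⟨a, subset_closure ha.1⟩ : X) ∈ oddCore X := by
      have h1 : (⟨hom4 R σ, hran σ⟩ * (⟨y, subset_closure hy⟩ * ⟨z, subset_closure hz⟩) *
          ⟨hom4 R σ, hran σ⟩⁻¹) * (⟨hom4 R τ, hran τ⟩ * (⟨y, subset_closure hy⟩ * ⟨z, subset_closure hz⟩) *
          ⟨hom4 R τ, hran τ⟩⁻¹ : X) ∈ oddCore X :=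
        mul_mem (hNn.conj_mem _ hN _) (hNn.conj_mem _ hN _)
      convert h1 using 1
      refine Subtype.ext ?_
      have h2 := congrArg (hom4 R) hστ
      simp only [map_mul, map_inv, ga, gb, gc] at h2
      simpa only [Subgroup.coe_mul, Subgroup.coe_inv] using h2.symm
    have h3 := hoddN _ hya (by
      show y * a * (y * a) = 1
      calc y * a * (y * a) = y * (a * y) * a := by simp only [mul_assoc]
        _ = (y * y) * (a * a) := by rw [← ha.2.2.2.eq]; simp only [mul_assoc]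
        _ = 1 := by rw [mul_self hT hy.1, mul_self hT ha.1.1, one_mul])
    exact ha.2.2.1 (eq_of_mul_eq_one hT hy.1 (show y * a = 1 from h3))
  have hzyN : (⟨z, subset_closure hz⟩ * ⟨y, subset_closure hy⟩ : X) ∈ oddCore X := by
    have h1 := inv_mem hyzN
    convert h1 using 1
    refine Subtype.ext ?_
    simp only [Subgroup.coe_mul, Subgroup.coe_inv, mul_inv_rev, inv_eq hT hy.1, inv_eq hT hz.1]
  have hyne : y ≠ z := fun e => hyz (e ▸ Commute.refl y)
  have htwin : Twin D x y z := ⟨hx, hy, hz, hyne, hyz, Set.Subset.antisymm (hsub y z hy hz hyzN hyz)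
    (hsub z y hz hy hzyN fun hh => hyz hh.symm)⟩
  -- global facts
  have hZ : ZStarAll.{u} := zStarAll
  have hw : ∃ a ∈ D, ∃ b ∈ D, a ≠ b ∧ Commute a b := ⟨x, hx, y, hy.1, hy.2.1.symm, hy.2.2⟩
  have hD2 : ∃ a ∈ D, ∃ b ∈ D, a ≠ b := ⟨x, hx, y, hy.1, hy.2.1.symm⟩
  have hprim := primitive_of_fischer hZ hsol hperf hD hD2
  have hnt : ∀ a ∈ D, ∀ b ∈ D, perp D b = perp D a → b = a := by
    intro a ha b hb e
    have h1 := mul_mem_pCore_three hZ hG ha hb e
    rw [pCore_bot_of_radical hsol Nat.prime_three, mem_bot] at h1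
    exact eq_of_mul_eq_one hT ha h1
  have htr : ∀ a ∈ D, ∀ b ∈ perp D a, ∀ c ∈ perp D a, ∃ g : G, Commute g a ∧ g * b * g⁻¹ = c := by
    intro a ha b hb c hc
    obtain ⟨k, hk, e⟩ := perp_transitive hG hprim hw ha hb hc
    refine ⟨k, ?_, e⟩
    have : closure (perp D a) ≤ centralizer ({a} : Set G) :=
      (closure_le _).mpr fun w hw => mem_centralizer_singleton_iff.mpr hw.2.2.eq.symm
    exact mem_centralizer_singleton_iff.mp (this hk)
  have hfree : ∀ a ∈ D, ∀ b ∈ perp D a, ∀ c ∈ perp D a, b ≠ c → ¬ Commute b c := by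
    intro a ha b hb c hc hbc hcm
    obtain ⟨t, rfl⟩ := exists_conj_of_class hD hx ha
    have ht := twin_conj hG (g := t) htwin
    obtain ⟨k, hk, e⟩ := htr _ ht.1 _ ht.2.1 b hb
    have ht' := twin_conj hG (g := k) ht
    rw [e, hk.eq, mul_inv_cancel_right] at ht'
    have := A_empty hG hnt htr ht'
    exact Set.eq_empty_iff_forall_notMem.mp this c ⟨hc, hc.1, hbc.symm, hcm⟩
  have hclosed : ∀ a ∈ D, ∀ u ∈ perp D a, ∀ v ∈ perp D a, u * v * u ∈ perp D a := by
    intro a ha u hu v hv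
    refine ⟨hmem2 hu.1 hv.1, fun e => hv.2.1 ?_, ((hu.2.2.mul_right hv.2.2).mul_right hu.2.2)⟩
    calc v = (u * u) * v * (u * u) := by rw [mul_self hT hu.1, one_mul, mul_one]
      _ = u * (u * v * u) * u := by simp only [mul_assoc]
      _ = a := by rw [e, ← hu.2.2.eq, mul_assoc, mul_self hT hu.1, mul_one]
  obtain ⟨k, hk⟩ : ∃ k, k = (perp D x).ncard := ⟨_, rfl⟩
  have hval : ∀ a ∈ D, (perp D a).ncard = k := by
    intro a ha
    obtain ⟨t, rfl⟩ := exists_conj_of_class hD hx ha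
    rw [perp_conj hG, Set.ncard_image_of_injective _ fun p q e => mul_left_cancel (mul_right_cancel e), hk]
  obtain ⟨m, hm⟩ := ncard_eq_three_pow hG hZ (fun v hv => hv.1) ⟨y, hy⟩ (hfree x hx)
    (hclosed x hx)
  rw [← hk] at hm
  have hk2 : 2 ≤ k := by
    rw [hk, ← Set.ncard_pair hyne]
    exact Set.ncard_le_ncard (by intro v hv; rcases hv with rfl | rfl <;> assumption) (Set.toFinite _)
  have hk3 : k = 3 := by
    by_contra hne
    have hm2 : 2 ≤ m := by
      rcases m with _ | _ | m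
      · simp at hm; omega
      · simp at hm; omega
      · omega
    -- the parameter `μ`
    obtain ⟨v, hv⟩ : ∃ v, v ∈ opp D x := by
      obtain ⟨e, he, hnc⟩ := exists_not_commute hD hD2 hx
      exact ⟨e, he, hnc⟩
    obtain ⟨μ, hμ⟩ : ∃ μ, μ = (perp D x ∩ perp D v).ncard := ⟨_, rfl⟩
    have hμc : ∀ a ∈ D, ∀ b ∈ D, ¬ Commute a b → (perp D a ∩ perp D b).ncard = μ := by
      intro a ha b hb hab
      obtain ⟨t, ht⟩ := exists_conj_of_class hD ha hx
      have hb' : t * b * t⁻¹ ∈ opp D x := ⟨hG.2.1 t b hb, fun hh => hab (by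
        rw [← ht] at hh
        exact (commute_conj_iff t).mp hh)⟩
      obtain ⟨l, hl, hlb⟩ := opp_transitive hG hprim hw hx hb' hv
      have hlx : l * x * l⁻¹ = x := by rw [(commute_of_mem_cent hl).eq, mul_inv_cancel_right]
      have e1 : perp D x ∩ perp D v = (fun u => (l * t) * u * (l * t)⁻¹) '' (perp D a ∩ perp D b) := by
        have e2 : (l * t) * a * (l * t)⁻¹ = x := by
          calc (l * t) * a * (l * t)⁻¹ = l * (t * a * t⁻¹) * l⁻¹ := by group
            _ = x := by rw [ht, hlx]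
        have e3 : (l * t) * b * (l * t)⁻¹ = v := by
          calc (l * t) * b * (l * t)⁻¹ = l * (t * b * t⁻¹) * l⁻¹ := by group
            _ = v := hlb
        rw [Set.image_inter fun p q e => mul_left_cancel (mul_right_cancel e), ← perp_conj hG,
          ← perp_conj hG, e2, e3]
      rw [hμ, e1, Set.ncard_image_of_injective _ fun p q e => mul_left_cancel (mul_right_cancel e)]
    obtain ⟨w, hw1, hw2⟩ := exists_mem_common hG hprim hw hx hv
    have hμne : (perp D x ∩ perp D v).Nonempty :=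
      ⟨w, hw1, hw1.1, fun e => hv.2 (e ▸ hw1.2.2), hw2⟩
    obtain ⟨s, hs⟩ := ncard_eq_three_pow hG hZ (fun u hu => hu.1.1) hμne
      (fun a ha b hb hab => hfree x hx a ha.1 b hb.1 hab)
      (fun a ha b hb => ⟨hclosed x hx a ha.1 b hb.1, hclosed v hv.1 a ha.2 b hb.2⟩)
    rw [← hμ] at hs
    have hμk : μ < k := by
      refine lt_of_le_of_ne ?_ fun e => ?_
      · rw [hμ, hk]; exact Set.ncard_le_ncard Set.inter_subset_left (Set.toFinite _)
      · have h1 : perp D x ∩ perp D v = perp D x :=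
          Set.eq_of_subset_of_ncard_le Set.inter_subset_left (by rw [← hμ, e, hk]) (Set.toFinite _)
        have h2 : perp D x ∩ perp D v = perp D v :=
          Set.eq_of_subset_of_ncard_le Set.inter_subset_right (by rw [← hμ, e, hval v hv.1]) (Set.toFinite _)
        exact hv.2 ((hnt v hv.1 x hx (h1.symm.trans h2)) ▸ Commute.refl _)
    haveI : Nonempty D := ⟨⟨x, hx⟩⟩
    haveI : Fintype D := Fintype.ofFinite _
    have hval' : ∀ (P : G → Prop), {u : D | P u}.ncard = {u : G | u ∈ D ∧ P u}.ncard := fun P => by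
      rw [← Set.ncard_image_of_injective {u : D | P u} Subtype.val_injective]
      congr 1
      ext u
      exact ⟨fun ⟨v, hv, e⟩ => e ▸ ⟨v.2, hv⟩, fun hu => ⟨⟨u, hu.1⟩, hu.2, rfl⟩⟩
    have hinter : ∀ a b : D, {u : G | u ∈ D ∧ (u ∈ perp D (a : G) ∧ (b : G) ∈ perp D u)}
        = perp D (a : G) ∩ perp D (b : G) := fun a b => Set.ext fun u =>
      ⟨fun hu => ⟨hu.2.1, perp_symm hG hu.1 hu.2.2⟩, fun hu => ⟨hu.1.1, hu.1, perp_symm hG b.2 hu.2⟩⟩
    obtain ⟨q, hq⟩ := srg_square (α := D) (fun a b => (b : G) ∈ perp D (a : G)) k μ (hm ▸ le_trans (show 3 ≤ 3 ^ 2 by norm_num) (Nat.pow_le_pow_right (by norm_num) hm2))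
      (by rw [hs]; exact Nat.one_le_pow _ _ (by norm_num)) hμk.le
      (fun a b hab => perp_symm hG a.2 hab) (fun a ha => ha.2.1 rfl)
      (fun a => by
        rw [hval' (fun u => u ∈ perp D (a : G))]
        rw [show {u : G | u ∈ D ∧ u ∈ perp D (a : G)} = perp D (a : G) from
          Set.ext fun u => ⟨fun hu => hu.2, fun hu => ⟨hu.1, hu⟩⟩]
        exact hval a a.2)
      (fun a b hab => by
        rw [hval' (fun u => u ∈ perp D (a : G) ∧ (b : G) ∈ perp D u), hinter, Set.ncard_eq_zero]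
        refine Set.eq_empty_iff_forall_notMem.mpr fun u hu => ?_
        exact hfree a a.2 b hab u hu.1 (fun e => hu.2.2.1 e.symm) hu.2.2.2)
      (fun a b hne' hab => by
        rw [hval' (fun u => u ∈ perp D (a : G) ∧ (b : G) ∈ perp D u), hinter]
        exact hμc a a.2 b b.2 fun hh => hab ⟨b.2, fun e => hne' (Subtype.ext e.symm), hh⟩)
    rw [hm, hs] at hq hμk
    have hsm : s < m := (Nat.pow_lt_pow_iff_right (by norm_num)).mp hμk
    obtain ⟨j, rfl⟩ := Nat.exists_eq_add_of_le hsm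
    rcases s with _ | s
    · refine not_square 1 q (4 * 3 ^ j - 1) ?_ ?_
      · rw [hq]
        have : 1 ≤ 3 ^ j := Nat.one_le_pow _ _ (by norm_num)
        simp only [pow_zero, pow_one, pow_add, Nat.zero_add]
        omega
      · obtain ⟨j, rfl⟩ := Nat.exists_eq_add_of_le (show 1 ≤ j by omega)
        rw [pow_add, pow_one]
        have : 1 ≤ 3 ^ j := Nat.one_le_pow _ _ (by norm_num)
        omega
    · refine not_square (s + 1) q (3 ^ (s + 1) + 4 * (3 ^ (j + 1) - 1)) ?_ ?_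
      · rw [hq, show s + 1 + 1 + j = (s + 1) + (j + 1) by omega, pow_add 3 (s + 1) (j + 1)]
        generalize 3 ^ (s + 1) = a
        generalize 3 ^ (j + 1) = b
        rcases b with _ | b
        · simp
        · rw [Nat.mul_succ, Nat.add_sub_cancel, Nat.succ_sub_one]; ring
      · rw [pow_succ, pow_succ]
        have : 1 ≤ 3 ^ j := Nat.one_le_pow _ _ (by norm_num)
        omega
  -- the local `Sym(3)` configuration
  have H : Hyp D := ⟨hT, hG.2.1, fun a ha => by rw [hval a ha, hk3], hfree⟩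
  obtain ⟨a1, ha1, ha1x⟩ := Set.exists_ne_of_one_lt_ncard
    (show 1 < (perp D y).ncard by rw [hval y hy.1]; omega) x
  have nb : ¬ Commute a1 z := fun hh => ha1x (hnt x hx a1 ha1.1
    (H.twins_of_square hx hy hz hyne ha1 hh))
  have nd : ¬ Commute x a1 := fun hh => hfree y hy.1 a1 ha1 x (perp_symm hG hx hy) ha1x hh.symm
  have R : Rel5 x a1 z y := ⟨rel4 hT hx ha1.1 hz.1 hz.2.2 nd nb, mul_self hT hy.1,
    by rw [← mul_assoc, ← mul_assoc]; exact braid hT hz.1 hy.1 (fun hh => hyz hh.symm),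
    hy.2.2.eq, ha1.2.2.symm.eq⟩
  obtain ⟨φ, hφ⟩ : ∃ φ, φ = hom5 R := ⟨_, rfl⟩
  have hinj : Function.Injective φ := hφ ▸ hom5_injective R hz.2.1.symm
  have h01 : φ (Equiv.swap 0 1) = x := by rw [hφ]; exact hom5_gen R 0
  have hmemT : ∀ t, IsT t → φ t ∈ D := by
    rintro t ⟨i, j, hij, rfl⟩
    obtain ⟨k', hk'⟩ := swap_conj i j hij
    rw [← hk', map_mul, map_mul, map_inv, h01]
    exact hG.2.1 _ x hx
  have hDY : D ⊆ φ '' {t | IsT t} := by
    refine eq_all_of_connected (connected_of_primitive hG hprim hw) hx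
      ⟨Equiv.swap 0 1, ⟨0, 1, by decide, rfl⟩, h01⟩ ?_
    rintro a - b hb ⟨t, ⟨i, j, hij, rfl⟩, rfl⟩ hab hc
    obtain ⟨p, q, r, hpq, hpr, hqr, hp, hq, hr⟩ := three_disjoint i j hij
    have hin : ∀ p q : Fin 5, p ≠ q → p ∉ ({i, j} : Finset (Fin 5)) → q ∉ ({i, j} : Finset (Fin 5)) →
        φ (Equiv.swap p q) ∈ perp D (φ (Equiv.swap i j)) := fun p q hpq hp hq =>
      ⟨hmemT _ ⟨p, q, hpq, rfl⟩, fun e => (swap_comm_of_disjoint i j p q hij hpq hp hq).2 (hinj e),
        by
          show φ _ * φ _ = φ _ * φ _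
          rw [← map_mul, ← map_mul, (swap_comm_of_disjoint i j p q hij hpq hp hq).1]⟩
    obtain ⟨n1, n2, n3⟩ := swaps_distinct p q r hpq hpr hqr
    have heq : ({φ (Equiv.swap p q), φ (Equiv.swap p r), φ (Equiv.swap q r)} : Set G)
        = perp D (φ (Equiv.swap i j)) := by
      refine Set.eq_of_subset_of_ncard_le ?_ ?_ (Set.toFinite _)
      · intro u hu
        rcases hu with rfl | rfl | rfl
        exacts [hin p q hpq hp hq, hin p r hpr hp hr, hin q r hqr hq hr]
      · rw [hval _ (hmemT _ ⟨i, j, hij, rfl⟩), hk3, Set.ncard_eq_three.mpr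
          ⟨_, _, _, hinj.ne n1, hinj.ne n2, hinj.ne n3, rfl⟩]
    have hb' : b ∈ perp D (φ (Equiv.swap i j)) := ⟨hb, Ne.symm hab, hc⟩
    rw [← heq] at hb'
    rcases hb' with rfl | rfl | rfl
    exacts [⟨_, ⟨p, q, hpq, rfl⟩, rfl⟩, ⟨_, ⟨p, r, hpr, rfl⟩, rfl⟩, ⟨_, ⟨q, r, hqr, rfl⟩, rfl⟩]
  have hsurj : Function.Surjective φ := by
    rw [← MonoidHom.range_eq_top, ← top_le_iff, ← hG.2.2, closure_le]
    intro e he
    obtain ⟨t, -, rfl⟩ := hDY he
    exact ⟨t, rfl⟩
  exact ⟨(MulEquiv.ofBijective φ ⟨hinj, hsurj⟩).symm⟩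

end CfsgLib.TwinsS5
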